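import Cfsg.Agent.H28.UCore2
import Cfsg.Agent.H28.SkLevi

/-!
Small permutation representations of symplectic groups in odd characteristic: the orbits of `Q_v`.
-/

set_option autoImplicit false
set_option linter.unusedSectionVars false
set_option linter.unusedSimpArgs false

namespace Cfsg.Agent.H28

open Module Classical Cfsg.Agent.H27 Cfsg.Agent.H66 Heis

variable {F V : Type*} [Field F] [AddCommGroup V] [Module F V]

/-- A symplectic form in odd characteristic. -/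
structure SpO (B : V →ₗ[F] V →ₗ[F] F) : Prop extends SkH B where
  alt : ∀ x, B x x = 0
  two : (2 : F) ≠ 0

variable {B : V →ₗ[F] V →ₗ[F] F} [FiniteDimensional F V] (S : SpO B)
include S

theorem SpO.htr : ∃ e : F, e + RingHom.id F e ≠ 0 := ⟨1, by simpa [one_add_one_eq_two] using S.two⟩

theorem SpO.mem {g : V ≃ₗ[F] V} (hg : g ∈ Iso B) : g ∈ GG B := (GG_alt S.alt S.nd).ge hg

theorem SpO.sk (x y : V) : B y x = -B x y := S.skew x y

theorem SpO.move {W : Submodule F V} (hW : NDs B W) {x x' : V} (hx : x ∈ W) (hx' : x' ∈ W)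
    (h0 : x ≠ 0) (h0' : x' ≠ 0) :
    ∃ g : GG B, g.1 x = x' ∧ ∀ z, (∀ y ∈ W, B y z = 0) → g.1 z = z := by
  obtain ⟨⟨d⟩, o⟩ := S.toSkH.exists_dec_perp hW
  obtain ⟨g, hg, -, h1, h2⟩ := S.toSkH.move1 d o (i := 0) hx hx' h0 h0' (by rw [S.alt, S.alt])
  exact ⟨⟨g, S.mem hg⟩, h1, fun z hz => h2 z (d.ne (by decide) (show z ∈ ![W, perp B W] 1 from hz))⟩

theorem SpO.diag {e f : V} (h : B e f = 1) {s : F} (hs : s ≠ 0) : ∃ g : GG B, g.1 e = s • e ∧
    g.1 f = s⁻¹ • f ∧ ∀ z, B e z = 0 → B f z = 0 → g.1 z = z := by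
  have h : HP B e f := ⟨S.alt e, S.alt f, h⟩
  obtain ⟨g, hg, -, e⟩ := h.exists_diag S.toSkH hs
  exact ⟨⟨g, S.mem hg⟩, by simp [e, h.vv, h.wv S.toSkH, sub_smul], by simp [e, h.ww, h.vw, sub_smul],
    fun z h1 h2 => by simp [e, h1, h2]⟩

theorem SpO.tE_apply (u : V) (c : F) (z : V) : (eE S.toSkH u 0 c).1 z = z + (c * B u z) • u :=
  H28.tE_apply S.toSkH (S.alt u) rfl z

theorem SpO.eE_apply {u x : V} (h : B u x = 0) (t : F) (z : V) :
    (eE S.toSkH u x t).1 z = z + B u z • x + (B x z + t * B u z) • u :=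
  H28.eE_apply S.toSkH (S.alt u) h (by simp [S.alt]) z

theorem SpO.eE_mul {u x y : V} (hx : B u x = 0) (hy : B u y = 0) (t s : F) :
    eE S.toSkH u x t * eE S.toSkH u y s = eE S.toSkH u (x + y) (t + s + B x y) :=
  H28.eE_mul S.toSkH (S.alt u) hx (by simp [S.alt]) hy (by simp [S.alt])

theorem SpO.as_iff {Ω : Type*} [MulAction (GG B) Ω] {ω : Ω} {u : V} :
    AS B (StB B ω) u ↔ ∀ c, eE S.toSkH u 0 c • ω = ω :=
  (as_StB S.toSkH).trans ⟨fun h c => h.2 c rfl, fun h => ⟨S.alt u, fun c _ => h c⟩⟩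

/-- The pointwise stabiliser of a hyperbolic pair is generated by its transvections. -/
theorem SpO.gen_Wp [Finite F] {v w : V} (h : HP B v w) (K : Subgroup (GG B))
    (hK : ∀ u ∈ Wp B v w, ∀ c, eE S.toSkH u 0 c ∈ K) :
    (∀ g : GG B, g.1 v = v → g.1 w = w → g ∈ K) ∧
      ∃ g : GG B, g.1 v = v ∧ g.1 w = w ∧ ∀ z ∈ Wp B v w, g.1 z = -z := by
  let K' : Subgroup (Wp B v w ≃ₗ[F] Wp B v w) :=
    { carrier := {g | ∃ g' ∈ K, g'.1 v = v ∧ g'.1 w = w ∧ ∀ x : Wp B v w, g'.1 x = g x}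
      one_mem' := ⟨1, K.one_mem, rfl, rfl, fun _ => rfl⟩
      mul_mem' := by
        rintro a b ⟨a', h1, h2, h3, h4⟩ ⟨b', h5, h6, h7, h8⟩
        exact ⟨a' * b', K.mul_mem h1 h5, by rw [GG_mul_apply, h6, h2], by rw [GG_mul_apply, h7, h3],
          fun x => by rw [GG_mul_apply, h8, h4]; rfl⟩
      inv_mem' := by
        rintro a ⟨a', h1, h2, h3, h4⟩
        refine ⟨a'⁻¹, K.inv_mem h1, ?_, ?_, fun x => ?_⟩
        · rw [← h2, GG_inv_apply, h2]
        · rw [← h3, GG_inv_apply, h3]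
        · rw [← GG_inv_apply a' (a⁻¹ x : Wp B v w), h4, le_apply_inv] }
  have key := iso_le_of_alt (B := B.domRestrict₁₂ (Wp B v w) (Wp B v w)) (fun x => S.alt x)
    (fun x hx => Subtype.ext (h.nd S.toSkH x x.2 fun y hy => hx ⟨y, hy⟩)) K' fun u c =>
      ⟨tv u (c • B.domRestrict₁₂ _ _ u) (by simp [S.alt, LinearMap.domRestrict₁₂_apply]), ⟨_, hK u u.2 c,
        by simp [S.tE_apply, S.zero_symm u.2.1], by simp [S.tE_apply, S.zero_symm u.2.2],
        fun x => by simp [S.tE_apply, tv_apply, LinearMap.domRestrict₁₂_apply]⟩, tv_apply _ _ _⟩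
  refine ⟨fun g hv hw => ?_, ?_⟩
  · have L := Lev.of_fix hv hw
    obtain ⟨g', h1, h2, h3, h4⟩ := key (x := LinearEquiv.ofInjectiveEndo
      ((g.1 : V →ₗ[F] V).restrict fun x hx => L.map_mem S.toSkH hx) fun x y e =>
        Subtype.ext (g.1.injective (congrArg Subtype.val e))) fun x y => GG_iso g x y
    have : g⁻¹ * g' = 1 := GG_ext fun z => by
      have := h4 ⟨_, h.proj_mem S.toSkH z⟩
      change g'.1 _ = g.1 (z + B w z • v - B v z • w) at this
      rw [map_sub, map_add, map_smul, map_smul, map_sub, map_add, map_smul, map_smul, h2, h3, hv, hw,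
        sub_left_inj, add_left_inj] at this
      rw [GG_mul_apply, this, GG_inv_apply]; rfl
    rwa [inv_mul_eq_one.1 this]
  · obtain ⟨g', -, h2, h3, h4⟩ := key (x := LinearEquiv.neg F) fun x y => by
      simp [LinearMap.domRestrict₁₂_apply]
    exact ⟨g', h2, h3, fun z hz => h4 ⟨z, hz⟩⟩

variable [Finite F] {v w : V} (h : HP B v w) {Ω : Type*} [MulAction (GG B) Ω] [Finite Ω]

local notation "𝐇" => heis S.toSkH S.htr h

omit S in
theorem card_Fx_id : Nat.card (Fx (RingHom.id F)) = Nat.card F :=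
  Nat.card_congr (Equiv.subtypeUnivEquiv fun _ => rfl)

include h in
theorem SpO.card_V : Nat.card V = Nat.card F ^ 2 * Nat.card (Wp B v w) := by
  rw [Module.natCard_eq_pow_finrank (K := F), Module.natCard_eq_pow_finrank (K := F) (V := Wp B v w),
    ← h.finrank_Wp S.toSkH, pow_add, mul_comm]

theorem sp_card_N_eq {y y' : Wp B v w} (h0 : y ≠ 0) (h0' : y' ≠ 0) {l l' : Fx (RingHom.id F)} {s : F}
    (hs : s ≠ 0) (e : s * s * l' = l) : ((𝐇).N Ω y' l').card = ((𝐇).N Ω y l).card := by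
  obtain ⟨g, e1, e2, e3⟩ := S.diag h.vw hs
  obtain ⟨k, e4, e5⟩ := S.move (h.nd S.toSkH) (s⁻¹ • y).2 y'.2 (by simpa [hs] using h0)
    (by simpa using h0')
  have L : Lev (RingHom.id F) v w g s := ⟨hs, e1, e2⟩
  rw [← L.card_N (y' := s⁻¹ • y) (by rw [e3 y y.2.1 y.2.2]; rfl) e]
  exact (Lev.of_fix (e5 v fun z hz => S.zero_symm hz.1) (e5 w fun z hz => S.zero_symm hz.2)).card_N
    (by simpa using e4.symm) (by simp)

variable (hΩ : Nat.card Ω * (Nat.card F - 1) < Nat.card V)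
include hΩ

theorem sp_sum_lt {y : Wp B v w} (h0 : y ≠ 0) (T : Finset (Fx (RingHom.id F))) (hT : 0 ∉ T) :
    ∑ l ∈ T, ((𝐇).N Ω y l).card < Nat.card F := by
  have := Fintype.ofFinite (Wp B v w)
  have := Fintype.ofFinite (Fx (RingHom.id F))
  let _ : DecidableEq (Fx (RingHom.id F)) := fun a b => propDecidable (a = b)
  have h1 := (𝐇).sum_N_le (Ω := Ω)
  have h2 : Nat.card (Wp B v w) * ∑ l ∈ T, ((𝐇).N Ω y l).card ≤
      ∑ l ∈ Finset.univ.erase 0, ∑ y, ((𝐇).N Ω y l).card := by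
    rw [Finset.mul_sum]
    refine le_trans (Finset.sum_le_sum fun l _ => ?_) (Finset.sum_le_sum_of_subset fun l hl =>
      Finset.mem_erase.2 ⟨by rintro rfl; exact hT hl, Finset.mem_univ _⟩)
    rw [Nat.card_eq_fintype_card, ← Finset.card_univ]
    refine Finset.card_nsmul_le_sum _ _ _ fun z _ => ?_
    by_cases hz : z = 0
    · exact hz ▸ Finset.card_le_card ((𝐇).N_subset y l)
    · exact (sp_card_N_eq S h h0 hz one_ne_zero (by simp)).ge
  rw [card_Fx_id, mul_comm _ (Nat.card Ω)] at h1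
  have h3 := ((Nat.mul_le_mul_left _ h2).trans h1).trans_lt hΩ
  rw [S.card_V h, sq, mul_assoc, mul_comm _ (Nat.card (Wp B v w))] at h3
  exact lt_of_mul_lt_mul_left (lt_of_mul_lt_mul_left h3 (Nat.zero_le _)) (Nat.zero_le _)

omit S hΩ in
theorem exists_sq_class {l : Fx (RingHom.id F)} (hl : l ≠ 0) : ∃ T : Finset (Fx (RingHom.id F)),
    Nat.card F - 1 ≤ 2 * T.card ∧ ∀ l' ∈ T, ∃ s : F, s ≠ 0 ∧ s * s * l' = l := by
  have := Fintype.ofFinite F
  have := Fintype.ofFinite (Fx (RingHom.id F))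
  have hl' : (l : F) ≠ 0 := fun e => hl (Subtype.ext e)
  refine ⟨Finset.univ.filter fun l' => ∃ s : F, s ≠ 0 ∧ s * s * l' = l, ?_,
    fun l' h => (Finset.mem_filter.1 h).2⟩
  rw [Nat.card_eq_fintype_card, ← Finset.card_univ, ← Finset.card_erase_of_mem (Finset.mem_univ (0 : F))]
  refine Finset.card_le_mul_card_image_of_maps_to (f := fun s => ⟨l / (s * s), rfl⟩) (fun s hs => ?_) 2
    fun l' hl' => ?_
  · have := (Finset.mem_erase.1 hs).1
    exact Finset.mem_filter.2 ⟨Finset.mem_univ _, s, this, mul_div_cancel₀ _ (mul_ne_zero this this)⟩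
  · obtain ⟨-, s, hs, e⟩ := Finset.mem_filter.1 hl'
    refine le_trans (Finset.card_le_card (t := {s, -s}) fun t ht => ?_) Finset.card_le_two
    obtain ⟨h1, h2⟩ := Finset.mem_filter.1 ht
    have h3 := (Finset.mem_erase.1 h1).1
    have h4 : (l : F) / (t * t) = l' := congrArg Subtype.val h2
    rw [← h4, ← mul_div_assoc, div_eq_iff (mul_ne_zero h3 h3), mul_comm, mul_right_inj' ‹_›] at e
    simpa using mul_self_eq_mul_self_iff.1 e.symm

omit hΩ in
theorem SpO.three_le : 3 ≤ Nat.card F := by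
  have := Fintype.ofFinite F
  have := card_mod_two_of_two_ne_zero S.two
  have := Fintype.one_lt_card (α := F)
  rw [Nat.card_eq_fintype_card]; omega

theorem sp_card_N_le {y : Wp B v w} (h0 : y ≠ 0) {l : Fx (RingHom.id F)} (hl : l ≠ 0) :
    ((𝐇).N Ω y l).card ≤ 2 := by
  obtain ⟨T, h1, h2⟩ := exists_sq_class hl
  have h3 := sp_sum_lt S h hΩ h0 T fun e => by
    obtain ⟨s, -, e⟩ := h2 0 e
    exact hl (Subtype.ext (by simpa using e.symm))
  rw [Finset.sum_congr rfl (g := fun _ => ((𝐇).N Ω y l).card) fun l' hl' => by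
    obtain ⟨s, hs, e⟩ := h2 l' hl'
    exact sp_card_N_eq S h h0 h0 hs e, Finset.sum_const, smul_eq_mul] at h3
  have := S.three_le
  by_contra hc
  have := Nat.mul_le_mul_left T.card (not_le.1 hc)
  omega

theorem sp_card_N_add_le {y : Wp B v w} (h0 : y ≠ 0) {l l' : Fx (RingHom.id F)} (hl : l ≠ 0)
    (hl' : l' ≠ 0) (hn : ∀ s : F, s * s * l ≠ l') : ((𝐇).N Ω y l).card + ((𝐇).N Ω y l').card ≤ 2 := by
  obtain ⟨T, h1, h2⟩ := exists_sq_class hl
  obtain ⟨T', h1', h2'⟩ := exists_sq_class hl'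
  have h3 := sp_sum_lt S h hΩ h0 (T ∪ T') fun e => by
    rcases Finset.mem_union.1 e with e | e
    · obtain ⟨s, -, e⟩ := h2 0 e
      exact hl (Subtype.ext (by simpa using e.symm))
    · obtain ⟨s, -, e⟩ := h2' 0 e
      exact hl' (Subtype.ext (by simpa using e.symm))
  rw [Finset.sum_union (Finset.disjoint_left.2 fun a ha ha' => by
      obtain ⟨s, hs, e⟩ := h2 a ha
      obtain ⟨s', -, e'⟩ := h2' a ha'
      exact hn (s' / s) (by rw [← e, ← e']; field_simp)),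
    Finset.sum_congr rfl (g := fun _ => ((𝐇).N Ω y l).card) fun l' hl' => by
      obtain ⟨s, hs, e⟩ := h2 l' hl'
      exact sp_card_N_eq S h h0 h0 hs e,
    Finset.sum_congr (s₁ := T') rfl (g := fun _ => ((𝐇).N Ω y l').card) fun l' hl' => by
      obtain ⟨s, hs, e⟩ := h2' l' hl'
      exact sp_card_N_eq S h h0 h0 hs e, Finset.sum_const, Finset.sum_const, smul_eq_mul,
    smul_eq_mul] at h3
  have := S.three_le
  by_contra hc
  have h4 := Nat.mul_le_mul_left (Nat.card F - 1) (not_le.1 hc)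
  have h5 := Nat.mul_le_mul_right ((𝐇).N Ω y l).card h1
  have h6 := Nat.mul_le_mul_right ((𝐇).N Ω y l').card h1'
  rw [mul_add] at h4
  rw [mul_assoc] at h5 h6
  omega

theorem sp_tE_fix {y u : Wp B v w} (h0 : y ≠ 0) (hu : B u y = 0) {O : (𝐇).Orb Ω} (hO : (𝐇).Y O ≠ ⊤)
    (hy : y ∈ (𝐇).A O) (c : F) : (Lev.tE (c := c) S.toSkH u.2 (S.alt u) rfl).nm S.toSkH S.htr h • O = O := by
  obtain ⟨l, hl, hl0⟩ := (𝐇).exists_L hO
  have hp := CharP.char_is_prime F (ringChar F)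
  refine fix_of_card_lt_prime ((𝐇).N Ω y l) (fun O hO => (Lev.mem_N _ (by simp [S.tE_apply, hu])
    (by simp)).2 hO) hp (Subtype.ext ?_) ((sp_card_N_le S h hΩ h0 hl0).trans_lt
      (hp.two_le.lt_of_ne' (ringChar_ne_two_of_two_ne_zero S.two))) ((𝐇).mem_N.2 ⟨hy, hl⟩)
  show eE S.toSkH u 0 c ^ _ = 1
  rw [tE_pow _ (S.alt u) rfl, ringChar.Nat.cast_ringChar, zero_mul, tE_zero _ (S.alt u)]

theorem sp_X_le {O : (𝐇).Orb Ω} (hO : (𝐇).Y O ≠ ⊤) {x y : Wp B v w} (hx : x ∈ (𝐇).X O)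
    (hy : y ∈ (𝐇).A O) (h0 : y ≠ 0) : (x : V) ∈ Submodule.span F {(y : V)} := by
  by_contra hn
  obtain ⟨u, hu, e1, e2⟩ := NDs.exists_two S.toSkH (h.nd S.toSkH) y.2 x.2 (by simpa using h0) hn 0 1
  obtain ⟨l, hl, hl0⟩ := (𝐇).exists_L hO
  refine mul_ne_zero (fun e => hl0 (Subtype.ext e)) S.two (eq_zero_of_psi fun c => ?_)
  have := tE_mem_X (u := ⟨u, hu⟩) (S.alt u) (c := -c) rfl
    (sp_tE_fix S h hΩ h0 (S.zero_symm e1) hO hy _) hx
  rw [← heis_iso hl hx this]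
  congr 1
  simp [e2, S.one_symm e2]
  ring

theorem sp_X_cases (hk : 2 ≤ finrank F (Wp B v w)) {O : (𝐇).Orb Ω} (hO : (𝐇).Y O ≠ ⊤) :
    (𝐇).X O = ⊥ ∨ (finrank F (Wp B v w) = 2 ∧ ∃ x : Wp B v w, x ≠ 0 ∧
      (∀ c : F, c • x ∈ (𝐇).X O) ∧ ∀ c : F, c • x ∈ (𝐇).A O) := by
  refine or_iff_not_imp_left.2 fun hX => ?_
  obtain ⟨⟨x, hx⟩, h0⟩ := AddSubgroup.ne_bot_iff_exists_ne_zero.1 hX
  have h0 : x ≠ 0 := fun e => h0 (Subtype.ext e)
  obtain ⟨l, hl, hl0⟩ := (𝐇).exists_L hO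
  have h1 : ∀ y ∈ (𝐇).A O, ∃ c : F, c • x = y := fun y hy => by
    by_cases hy0 : y = 0
    · exact ⟨0, by simp [hy0]⟩
    obtain ⟨c, hc⟩ := Submodule.mem_span_singleton.1 (sp_X_le S h hΩ hO hx hy hy0)
    have hc' : c • y = x := Subtype.ext hc
    exact ⟨c⁻¹, by rw [← hc', inv_smul_smul₀ (by rintro rfl; exact h0 (by simpa using hc'.symm))]⟩
  choose! c hc using h1
  have h2 : Function.Injective fun y : (𝐇).A O => c y := fun y y' e =>
    Subtype.ext (by rw [← hc y y.2, ← hc y' y'.2, show c y = c y' from e])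
  have h3 := Nat.card_le_card_of_injective _ h2
  have h4 := card_le_sq_A hl hl0
  have h5 := S.three_le
  have h6 : finrank F (Wp B v w) = 2 := le_antisymm ((Nat.pow_le_pow_iff_right (by omega)).1
    (h4.trans (Nat.pow_le_pow_left h3 2))) hk
  rw [h6, Nat.pow_le_pow_iff_left two_ne_zero] at h4
  have h7 := (Nat.bijective_iff_injective_and_card _).2 ⟨h2, le_antisymm h3 h4⟩
  refine ⟨h6, x, h0, fun a => heis_mem_X_of_A fun y hy => ?_, fun a => ?_⟩
  · rw [← hc y hy]; simp [S.alt]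
  · obtain ⟨y, rfl⟩ := h7.2 a
    rw [hc y y.2]; exact y.2

end Cfsg.Agent.H28
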