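import Cfsg.Agent.H28.SpOdd1
import Cfsg.Agent.H28.UTransfer

/-!
Small permutation representations of symplectic groups in odd characteristic: the two types of
orbits of `Q_v`.
-/

set_option autoImplicit false
set_option linter.unusedSectionVars false
set_option linter.unusedSimpArgs false

namespace Cfsg.Agent.H28

open Module Classical Cfsg.Agent.H27 Cfsg.Agent.H66 Heis

variable {F V : Type*} [Field F] [AddCommGroup V] [Module F V]

theorem HP.ext {σ : F →+* F} {B : V →ₛₗ[σ] V →ₗ[F] F} [FiniteDimensional F V] (S : SkH B) {v w : V}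
    (h : HP B v w) {g k : GG B} (hv : g.1 v = k.1 v) (hw : g.1 w = k.1 w)
    (hW : ∀ z ∈ Wp B v w, g.1 z = k.1 z) : g = k :=
  GG_ext fun z => by
    have := hW _ (h.proj_mem S z)
    rwa [map_sub, map_add, map_smul, map_smul, map_sub, map_add, map_smul, map_smul, hv, hw,
      sub_left_inj, add_left_inj] at this

theorem NDs.mem_span_of_perp {σ : F →+* F} {B : V →ₛₗ[σ] V →ₗ[F] F} [FiniteDimensional F V]
    {W : Submodule F V} (hW : NDs B W) (h2 : finrank F W = 2) {x y : V} (hx : x ∈ W) (h0 : x ≠ 0)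
    (hxx : B x x = 0) (hy : y ∈ W) (hxy : B x y = 0) : y ∈ Submodule.span F {x} := by
  obtain ⟨z, hz, e⟩ := hW.exists_one hx h0
  have h1 : finrank F (W ⊓ LinearMap.ker (B x) : Submodule F V) < finrank F W :=
    Submodule.finrank_lt_finrank_of_lt (lt_of_le_of_ne inf_le_left fun e' => by
      have : B x z = 0 := (e'.ge hz).2
      simp [e] at this)
  rw [Submodule.eq_of_le_of_finrank_le (S₂ := W ⊓ LinearMap.ker (B x))
    ((Submodule.span_singleton_le_iff_mem _ _).2 ⟨hx, hxx⟩) (by rw [finrank_span_singleton h0]; omega)]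
  exact ⟨hy, hxy⟩

variable {B : V →ₗ[F] V →ₗ[F] F} [FiniteDimensional F V] (S : SpO B)
variable {Ω : Type*} [MulAction (GG B) Ω]
include S

theorem SpO.tE_add (u : V) (c d : F) : eE S.toSkH u 0 (c + d) = eE S.toSkH u 0 c * eE S.toSkH u 0 d :=
  H28.tE_add S.toSkH (S.alt u) rfl rfl

theorem SpO.as_of_eigen {ω : Ω} {v x : V} {g : GG B} {u : F} (hg : g • ω = ω) (hv : g.1 v = v)
    (hx : g.1 x = u • x) (hu : u * u ≠ 1)
    (h : ∀ c, ∃ z, eE S.toSkH x 0 c • ω = eE S.toSkH v 0 z • ω) : AS B (StB B ω) x := by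
  refine S.as_iff.2 fun c => ?_
  obtain ⟨c, rfl⟩ : ∃ c', c = c' * (u * u - 1) := ⟨_, (div_mul_cancel₀ c (sub_ne_zero.2 hu)).symm⟩
  obtain ⟨z, e⟩ := h c
  have e1 := congrArg (g • ·) e
  simp only [← mul_smul, conj_eE, hv, hx, map_zero] at e1
  rw [mul_smul, mul_smul, hg, ← e, show eE S.toSkH (u • x) 0 c =
    eE S.toSkH x 0 (c + c * (u * u - 1)) from GG_ext fun y => by
      simp only [S.tE_apply, map_smul, LinearMap.smul_apply, smul_eq_mul, smul_smul]
      congr 2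
      ring, S.tE_add, mul_smul, smul_left_cancel_iff] at e1
  exact e1

variable [Finite F] [Finite Ω] {v w : V} (h : HP B v w)

local notation "𝐇" => heis S.toSkH S.htr h

theorem sp_orb_smul {ω : Ω} {g : GG B} {s : F} (L : Lev (RingHom.id F) v w g s)
    (e : L.nm S.toSkH S.htr h • (𝐇).orb ω = (𝐇).orb ω) :
    ∃ (x : Wp B v w) (t : F), g • ω = eE S.toSkH v x t • ω := by
  obtain ⟨x, c, e⟩ := (𝐇).orb_eq_iff.1 e
  exact ⟨x, _, e.symm.trans (by rw [heis_el])⟩

variable (hΩ : Nat.card Ω * (Nat.card F - 1) < Nat.card V)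
include hΩ

theorem sp_typeA (hk : 3 ≤ finrank F (Wp B v w) ∨ 3 < Nat.card F) {O : (𝐇).Orb Ω} (hO : (𝐇).Y O ≠ ⊤)
    (hX : (𝐇).X O = ⊥) : ∃ ω, (𝐇).orb ω = O ∧ ∀ u ∈ Wp B v w, AS B (StB B ω) u := by
  obtain ⟨h1, r, rv, rw', rz⟩ := S.gen_Wp h ((MulAction.stabilizer (𝐇).Nm O).map (𝐇).Nm.subtype)
    fun u hu c => by
      by_cases h0 : u = 0
      · rw [show eE S.toSkH u 0 c = 1 from GG_ext fun z => by simp [S.tE_apply, h0]]
        exact Subgroup.one_mem _
      · exact ⟨_, sp_tE_fix S h hΩ (y := ⟨u, hu⟩) (u := ⟨u, hu⟩) (by simpa using h0) (S.alt u) hO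
          (fun x hx => by
            rw [hX, AddSubgroup.mem_bot] at hx
            rw [hx]; exact (𝐇).P.zero_left _) c, rfl⟩
  have h2 : ∀ {g : GG B} (L : Lev (RingHom.id F) v w g 1), L.nm S.toSkH S.htr h • O = O := by
    intro g L
    obtain ⟨k, hk, e⟩ := h1 g (by simpa using L.hv) (by simpa using L.hw)
    rwa [show L.nm S.toSkH S.htr h = k from Subtype.ext e.symm]
  have L := Lev.of_fix rv rw'
  have eig : ∀ z ∈ Wp B v w, r.1 z = (-1 : F) • z := fun z hz => by simp [rz z hz]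
  have ne : (-1 : F) ≠ 1 := fun e => S.two (by linear_combination -e)
  obtain ⟨ω, rfl, hω⟩ := L.exists_fixed (h2 L) Nat.prime_two (h.eq_one S.toSkH
    (by rw [sq, GG_mul_apply, rv, rv]) (by rw [sq, GG_mul_apply, rw', rw']) fun z hz => by
      rw [GG_pow_eigen (eig z hz)]; simp) (by
      have := Fintype.ofFinite F
      have := card_mod_two_of_two_ne_zero S.two
      rw [Nat.card_eq_fintype_card]; omega)
  refine ⟨ω, rfl, fun u hu => ?_⟩
  by_cases h0 : u = 0
  · exact h0 ▸ as_zero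
  have z0 : ∀ x : Wp B v w, (∀ z ∈ Wp B v w, B z x = 0) → (x : V) = 0 := fun x hx =>
    h.nd S.toSkH x x.2 fun z hz => S.zero_symm (hx z hz)
  rcases hk with hk | hk
  · refine S.as_iff.2 fun c => ?_
    obtain ⟨a, ha, e1, e2⟩ := exists_ker_list [B u] (W := Wp B v w) (S := Submodule.span F {u})
      (by have := finrank_span_single_le (F := F) u; simp only [List.length_singleton]; omega)
    obtain ⟨a', ha', e3, e4⟩ := NDs.exists_two S.toSkH (h.nd S.toSkH) hu ha h0 e2 0 (c / 2)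
    obtain ⟨x, x', e5, -, e6⟩ := lev_comm_smul L hω hX le_rfl eig (by simp) ne (fun g L => h2 L) hu ha ha'
      (S.alt u) (e1 _ (by simp)) e3
    rwa [e4, z0 x e5, map_zero, map_zero, add_zero, tE_zero _ h.vv, one_smul, RingHom.id_apply,
      ← two_mul, mul_div_cancel₀ _ S.two] at e6
  have key : ∀ {g : GG B}, Lev (RingHom.id F) v w g 1 → ∃ z, g • ω = eE S.toSkH v 0 z • ω := by
    intro g L'
    obtain ⟨x, c, e1, e2⟩ := L.exists_el (g := g) hω hX eig ne (h2 L') (h.ext S.toSkH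
      (by simp [GG_mul_apply, rv, L'.hv]) (by simp [GG_mul_apply, rw', L'.hw]) fun z hz => by
        rw [GG_mul_apply, GG_mul_apply, rz z hz, rz _ (L'.map_mem S.toSkH hz), map_neg])
    exact ⟨_, by rw [e2, heis_el, z0 x e1]⟩
  have := Fintype.ofFinite F
  obtain ⟨t, ht⟩ := exists_pow_ne_one_of_isCyclic (G := Fˣ) two_ne_zero (by
    rw [Nat.card_units]; omega)
  obtain ⟨u', hu', e⟩ := NDs.exists_one (h.nd S.toSkH) hu h0
  obtain ⟨d, e1, -, e2⟩ := S.diag e t.ne_zero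
  have dv := e2 v (S.zero_symm hu.1) (S.zero_symm hu'.1)
  obtain ⟨z, hz⟩ := key (Lev.of_fix dv (e2 w (S.zero_symm hu.2) (S.zero_symm hu'.2)))
  exact S.as_of_eigen (g := eE S.toSkH v 0 (-z) * d) (v := v) (u := t)
    (by rw [mul_smul, hz, ← mul_smul, ← S.tE_add, neg_add_cancel, tE_zero _ h.vv, one_smul])
    (by simp [GG_mul_apply, dv, S.tE_apply, h.vv])
    (by simp [GG_mul_apply, e1, S.tE_apply, (mem_Wp.1 hu).1])
    (fun e => ht (Units.ext (by simpa [sq] using e))) fun c => key (Lev.tE S.toSkH hu (S.alt u) rfl)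

theorem sp_A_smul (hk : 2 ≤ finrank F (Wp B v w)) {O : (𝐇).Orb Ω} (hO : (𝐇).Y O ≠ ⊤) {y : Wp B v w}
    (hy : y ∈ (𝐇).A O) (c : F) : c • y ∈ (𝐇).A O := by
  rcases sp_X_cases S h hΩ hk hO with hX | ⟨-, x, h0, hX, hA⟩
  · intro x hx
    rw [hX, AddSubgroup.mem_bot] at hx
    rw [hx]; exact (𝐇).P.zero_left _
  by_cases hy0 : y = 0
  · simp [hy0]
  obtain ⟨a, ha⟩ := Submodule.mem_span_singleton.1 (sp_X_le S h hΩ hO (hX 1) hy hy0)
  have ha' : a • y = x := Subtype.ext (by simpa using ha)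
  have := hA (c / a)
  rwa [← ha', smul_smul, div_mul_cancel₀ _ (by rintro rfl; exact h0 (by simpa using ha'.symm))] at this

theorem sp_exists_torus (hk : 2 ≤ finrank F (Wp B v w)) (hq : 3 < Nat.card F) {O : (𝐇).Orb Ω}
    (hO : (𝐇).Y O ≠ ⊤) {x : Wp B v w} (h0 : x ≠ 0) (hx : x ∈ (𝐇).A O) :
    ∃ (g : GG B) (L : Lev (RingHom.id F) v w g 1) (u : F), u * u ≠ 1 ∧ g.1 x = u • (x : V) ∧
      L.nm S.toSkH S.htr h • O = O := by
  obtain ⟨l, hl, hl0⟩ := (𝐇).exists_L hO
  have hN := (𝐇).mem_N.2 ⟨hx, hl⟩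
  obtain ⟨x', hx', e⟩ := NDs.exists_one (h.nd S.toSkH) x.2 (by simpa using h0)
  have key : ∀ t : F, t ≠ 0 → ∃ (g : GG B) (L : Lev (RingHom.id F) v w g 1), g.1 x = t • (x : V) ∧
      ∀ O ∈ (𝐇).N Ω x l, L.nm S.toSkH S.htr h • O ∈ (𝐇).N Ω x l := fun t ht => by
    obtain ⟨d, e1, -, e2⟩ := S.diag e ht
    have L := Lev.of_fix (e2 v (S.zero_symm x.2.1) (S.zero_symm hx'.1))
      (e2 w (S.zero_symm x.2.2) (S.zero_symm hx'.2))
    refine ⟨d, L, e1, fun O hO => ?_⟩
    obtain ⟨h1, h2⟩ := (𝐇).mem_N.1 ((L.mem_N (y' := t • x) (l' := l) (by simp [e1]) (by simp)).2 hO)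
    exact (𝐇).mem_N.2 ⟨by simpa [ht] using sp_A_smul S h hΩ hk (heis_Y_ne_top h2 hl0) h1 t⁻¹, h2⟩
  have := Fintype.ofFinite F
  by_cases h5 : 5 < Nat.card F
  · obtain ⟨t, ht⟩ := exists_pow_ne_one_of_isCyclic (G := Fˣ) four_ne_zero (by
      rw [Nat.card_units]; omega)
    obtain ⟨g, L, e1, e2⟩ := key t t.ne_zero
    refine ⟨g * g, Lev.of_fix (by simp [GG_mul_apply, L.hv]) (by simp [GG_mul_apply, L.hw]), t * t,
      fun e => ht (Units.ext (by rw [Units.val_pow_eq_pow_val, Units.val_one, ← e]; ring)),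
      by simp [GG_mul_apply, e1, smul_smul], ?_⟩
    show (L.nm S.toSkH S.htr h * L.nm S.toSkH S.htr h) • O = O
    rw [mul_smul]
    by_contra hc
    have := Finset.two_lt_card.2 ⟨_, hN, _, e2 _ hN, _, e2 _ (e2 _ hN),
      fun e => hc (by rw [← e, ← e]), Ne.symm hc,
      fun e => hc (by rw [← e, ← (smul_left_cancel_iff _).1 e])⟩
    exact absurd (sp_card_N_le S h hΩ h0 hl0) (not_le.2 this)
  have h6 : Fintype.card F = 5 := by
    have := card_mod_two_of_two_ne_zero S.two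
    rw [Nat.card_eq_fintype_card] at h5 hq; omega
  have h7 : (5 : F) = 0 := by exact_mod_cast h6 ▸ FiniteField.cast_card_eq_zero F
  have h8 : (3 : F) ≠ 0 := fun e => S.two (by linear_combination h7 - e)
  obtain ⟨g, L, e1, e2⟩ := key 2 S.two
  refine ⟨g, L, 2, fun e => h8 (by linear_combination e), e1, ?_⟩
  have hl' : (l : F) ≠ 0 := fun e => hl0 (Subtype.ext e)
  have h9 := sp_card_N_add_le S h hΩ h0 hl0 (l' := l + l)
    (fun e => mul_ne_zero S.two hl' (by rw [two_mul]; exact congrArg Subtype.val e)) fun s e => by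
      have e3 : s * s = 2 := mul_right_cancel₀ hl' (by rw [e, two_mul]; rfl)
      have := FiniteField.pow_card_sub_one_eq_one s (by rintro rfl; exact S.two (by simpa using e3.symm))
      rw [h6] at this
      exact h8 (by linear_combination this - (s * s + 2) * e3)
  have := Finset.card_pos.2 ⟨O, (𝐇).mem_N.2 ⟨hx, add_mem hl hl⟩⟩
  exact Finset.card_le_one.1 (by omega) _ (e2 _ hN) _ hN

theorem sp_typeB (hq : 3 < Nat.card F) {ω : Ω} (hO : (𝐇).Y ((𝐇).orb ω) ≠ ⊤)
    (hk : finrank F (Wp B v w) = 2) {x : Wp B v w} (h0 : x ≠ 0)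
    (hX : ∀ c : F, c • x ∈ (𝐇).X ((𝐇).orb ω)) (hA : ∀ c : F, c • x ∈ (𝐇).A ((𝐇).orb ω)) :
    ∃ x', x' ≠ 0 ∧ B v x' = 0 ∧ AS B (StB B ω) x' ∧ ∀ β : F, eE S.toSkH v (β • x') 0 • ω = ω := by
  have hx : B v x = 0 := x.2.1
  have cm : ∀ (a : V) (c z : F), B v a = 0 → Commute (eE S.toSkH a 0 c) (eE S.toSkH v 0 z) :=
    fun a c z ha => commute_eE _ _ (by simp [S.tE_apply, S.zero_symm ha]) (map_zero _)
  have B1 : ∀ β : F, ∃ t, eE S.toSkH v (β • (x : V)) t • ω = ω := fun β =>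
    (heis_mem_X.1 (hX β)).imp fun _ h => h.2
  have B0 : ∀ (β t : F), ∃ z, eE S.toSkH v (β • (x : V)) t • ω = eE S.toSkH v 0 z • ω := fun β t => by
    obtain ⟨t', e⟩ := B1 β
    refine ⟨t - t', ?_⟩
    conv_rhs => rw [← e, ← mul_smul, S.eE_mul (by simp) (by simp [hx])]
    simp
  have B2 : ∀ c, ∃ z, eE S.toSkH x 0 c • ω = eE S.toSkH v 0 z • ω := fun c => by
    obtain ⟨y, t, e⟩ := sp_orb_smul S h _ (sp_tE_fix S h hΩ h0 (S.alt x) hO (by simpa using hA 1) c)
    have hy : B x y = 0 := by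
      by_contra hn
      refine hO (heis_Y_top.2 (S.as_iff.2 fun z => ?_))
      obtain ⟨t', e'⟩ := B1 (z / (2 * B x y))
      have e1 := congrArg (eE S.toSkH v ((z / (2 * B x y)) • (x : V)) t' • ·) e
      have hy : B v y = 0 := y.2.1
      simp only [← mul_smul] at e1
      rw [← (commute_eE S.toSkH (g := eE S.toSkH x 0 c) t' (by simp [S.tE_apply, S.zero_symm hx])
        (by simp [S.tE_apply, S.alt])).eq, mul_smul, e', e, S.eE_mul (by simp [hx]) hy] at e1
      rw [← smul_left_cancel_iff (eE S.toSkH v y t * eE S.toSkH v ((z / (2 * B x y)) • (x : V)) t'),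
        mul_smul _ _ ω, e', e1, ← mul_smul, S.eE_mul hy (by simp [hx]),
        S.eE_mul (by simp [hx, hy]) (by simp), add_zero, add_comm (y : V)]
      congr 2
      have := S.two
      simp only [map_smul, LinearMap.smul_apply, smul_eq_mul, S.sk x y, map_zero]
      field_simp
      ring
    obtain ⟨β, hβ⟩ := Submodule.mem_span_singleton.1
      (NDs.mem_span_of_perp (h.nd S.toSkH) hk x.2 (by simpa using h0) (S.alt x) y.2 hy)
    rw [e, ← hβ]
    exact B0 β t
  obtain ⟨g, L, u, hu, e1, e2⟩ := sp_exists_torus S h hΩ hk.ge hq hO h0 (by simpa using hA 1)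
  obtain ⟨y, t, e3⟩ := sp_orb_smul S h L e2
  have hu1 : 1 - u ≠ 0 := fun e => hu (by rw [← sub_eq_zero.1 e, one_mul])
  obtain ⟨γ, hγ⟩ : ∃ γ, γ * (1 - u) = u * B y x := ⟨_, div_mul_cancel₀ _ hu1⟩
  have hy : B v y = 0 := y.2.1
  have gv : g.1 v = v := by simpa using L.hv
  have k1 : ((eE S.toSkH v y t)⁻¹ * g) • ω = ω := by rw [mul_smul, e3, inv_smul_smul]
  have k2 : ((eE S.toSkH v y t)⁻¹ * g).1 v = v := by
    rw [GG_mul_apply, gv]
    refine Eq.trans (congrArg _ ?_) (GG_inv_apply (eE S.toSkH v y t) v)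
    simp [S.eE_apply hy, h.vv, S.zero_symm hy]
  have k3 : ((eE S.toSkH v y t)⁻¹ * g).1 (x + γ • v) = u • (x + γ • v) := by
    rw [GG_mul_apply, ← GG_inv_apply (eE S.toSkH v y t) (u • _)]
    congr 1
    simp only [S.eE_apply hy, h.vv, S.zero_symm hy, map_add, map_smul, e1, gv, hx, smul_eq_mul]
    match_scalars
    · ring
    · linear_combination hγ
    · ring
  generalize (eE S.toSkH v y t)⁻¹ * g = k at k1 k2 k3
  have hx' : B v (x + γ • v) = 0 := by simp [hx, h.vv]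
  refine ⟨x + γ • v, fun e => h0 (Subtype.ext ?_), hx', S.as_of_eigen k1 k2 k3 hu fun c => ?_, fun β => ?_⟩
  · have : γ = 0 := by simpa [h.wv S.toSkH, (mem_Wp.1 x.2).2] using congrArg (B w) e
    simpa [this] using e
  · obtain ⟨z, hz⟩ := B0 (c * γ) (c * γ * γ)
    obtain ⟨z', hz'⟩ := B2 c
    refine ⟨z + z', ?_⟩
    rw [show eE S.toSkH (x + γ • v) 0 c = eE S.toSkH x 0 c * eE S.toSkH v ((c * γ) • (x : V)) (c * γ * γ)
      from GG_ext fun a => by
        simp only [GG_mul_apply, S.tE_apply, S.eE_apply (show B v ((c * γ) • (x : V)) = 0 by simp [hx]),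
          map_add, map_smul, LinearMap.add_apply, LinearMap.smul_apply, smul_eq_mul, S.alt,
          S.zero_symm hx]
        module, mul_smul, hz, ← mul_smul, (cm _ _ _ hx).eq, mul_smul, hz', ← mul_smul, ← S.tE_add]
  · obtain ⟨β, rfl⟩ : ∃ β', β = (u - 1) * β' := ⟨β / (u - 1), by
      rw [mul_div_cancel₀ _ (fun e => hu1 (by linear_combination -e))]⟩
    obtain ⟨t, e⟩ := B1 β
    rw [← eE_eq S.toSkH (a := 1) (γ := β * γ) (u' := v) (x' := β • (x + γ • v)) (t' := t - 2 * (β * γ))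
      h.vv (by simp [hx]) (by simp [S.alt]) (by simp) (by simp [smul_smul]) one_ne_zero
      (by simp; ring)] at e
    generalize (x : V) + γ • v = x' at *
    have e4 := congrArg (k • ·) e
    simp only [← mul_smul, conj_eE, k2, map_smul, k3] at e4
    rw [mul_smul, k1] at e4
    conv_lhs => rw [← e, ← mul_smul, S.eE_mul (by simp [hx']) (by simp [hx'])]
    rw [← e4]
    congr 2
    · module
    · simp [S.alt]

end Cfsg.Agent.H28
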