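import Cfsg.Agent.H28.SpOdd2

/-!
The minimal degree of a non-trivial permutation representation of a symplectic group in odd
characteristic.
-/

set_option autoImplicit false
set_option linter.unusedSectionVars false
set_option linter.unusedSimpArgs false

namespace Cfsg.Agent.H28

open Module Classical Cfsg.Agent.H27 Cfsg.Agent.H66 Heis

variable {F V : Type*} [Field F] [AddCommGroup V] [Module F V]

section General

variable {σ : F →+* F} {B : V →ₛₗ[σ] V →ₗ[F] F} [FiniteDimensional F V] (S : SkH B)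
variable {Ω : Type*} [MulAction (GG B) Ω]

variable (B) in
/-- The radical of the span of the centres of the root groups fixing `ω`. -/
def Rad (ω : Ω) : Submodule F V :=
  Submodule.span F {u | AS B (StB B ω) u} ⊓ perp B (Submodule.span F {u | AS B (StB B ω) u})

theorem Rad.iso {ω : Ω} {x y : V} (hx : x ∈ Rad B ω) (hy : y ∈ Rad B ω) : B x y = 0 := hy.2 x hx.1

include S

theorem mem_Rad {ω : Ω} {x : V} (h1 : x ∈ Submodule.span F {u | AS B (StB B ω) u})
    (h2 : ∀ u, AS B (StB B ω) u → B x u = 0) : x ∈ Rad B ω :=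
  ⟨h1, fun _ hy => S.zero_symm (Submodule.span_le.2 (show _ ⊆ (LinearMap.ker (B x) : Set V) from h2) hy)⟩

theorem Rad.smul {ω : Ω} {x : V} (hx : x ∈ Rad B ω) (g : GG B) : g.1 x ∈ Rad B (g • ω) := by
  have key : ∀ (g : GG B) (ω : Ω), ∀ x ∈ Submodule.span F {u | AS B (StB B ω) u},
      g.1 x ∈ Submodule.span F {u | AS B (StB B (g • ω)) u} := fun g ω =>
    (Submodule.span_le (p := (Submodule.span F {u | AS B (StB B (g • ω)) u}).comap
      (g.1 : V →ₗ[F] V))).2 fun u hu => Submodule.subset_span ((as_StB_smul S g).2 hu)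
  refine ⟨key g ω x hx.1, fun y hy => ?_⟩
  rw [← GG_apply_inv g y, GG_iso]
  exact hx.2 _ (by simpa using key g⁻¹ _ y hy)

theorem finrank_Wp_two {a b : V} (ha : a ≠ 0) (hb : b ∉ Submodule.span F {a}) :
    finrank F (Wp B a b) + 2 = finrank F V := by
  have h1 := LinearMap.finrank_range_add_finrank_ker ((B a).prod (B b))
  rw [LinearMap.ker_prod, LinearMap.range_eq_top.2 fun p => by
    obtain ⟨z, -, e1, e2⟩ := (NDs.top S).exists_two S trivial trivial ha hb p.1 p.2
    exact ⟨z, Prod.ext e1 e2⟩, finrank_top, finrank_prod, finrank_self] at h1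
  rw [← h1, add_comm]; rfl

/-- A subspace of a symplectic space meeting every totally isotropic line is a hyperplane. -/
theorem exists_perp_of_star (alt : ∀ x, B x x = 0) {P : Submodule F V} {u v : V} (hu : u ∈ P) (h0 : u ≠ 0)
    (hvP : v ∉ P) (c1 : ∀ v ∉ P, ∀ x, B v x = 0 → x ∈ P ⊔ Submodule.span F {v}) :
    ∃ a, a ≠ 0 ∧ ∀ b, (∀ x ∈ P, B b x = 0) ↔ b ∈ Submodule.span F {a} := by
  obtain ⟨x, hx, hxv⟩ : ∃ x ∈ P, B v x ≠ 0 := by
    by_contra hc
    push Not at hc
    have h2 : u + v ∉ P := fun h => hvP (by simpa using P.sub_mem h hu)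
    obtain ⟨z, -, e1, e2⟩ := (NDs.top S).exists_two S (x := u + v) (x' := v) trivial
      trivial (fun e => h2 (e ▸ P.zero_mem)) (fun h => by
        obtain ⟨c, hc⟩ := Submodule.mem_span_singleton.1 h
        by_cases h1 : c = 1
        · exact h0 (by simpa [h1] using hc)
        · refine hvP ((P.smul_mem_iff (sub_ne_zero.2 (Ne.symm h1))).1 ?_)
          rw [show (1 - c) • v = c • u by rw [sub_smul, one_smul, sub_eq_iff_eq_add, ← smul_add, hc]]
          exact P.smul_mem _ hu) 0 1
    obtain ⟨p, hp, t, ht, rfl⟩ := Submodule.mem_sup.1 (c1 (u + v) h2 z e1)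
    obtain ⟨c, rfl⟩ := Submodule.mem_span_singleton.1 ht
    simp [hc p hp, hc u hu, alt] at e2
  have kill : ∀ b, (∀ x ∈ P, B b x = 0) → B b v = 0 → b = 0 := fun b h1 h2 => S.nd b fun z => by
    obtain ⟨p, hp, t, ht, e⟩ := Submodule.mem_sup.1 (c1 v hvP (z - (B v z / B v x) • x)
      (by simp [div_mul_cancel₀ _ hxv]))
    obtain ⟨c, rfl⟩ := Submodule.mem_span_singleton.1 ht
    simpa [h1 p hp, h2, h1 x hx] using (congrArg (B b) e).symm
  obtain ⟨a, ha, hav⟩ := S.exists_perp_one hvP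
  refine ⟨a, by rintro rfl; simp at hav, fun b => ⟨fun h => ?_, fun h u hu => ?_⟩⟩
  · refine Submodule.mem_span_singleton.2 ⟨σ (B b v), (sub_eq_zero.1 (kill _ (fun x hx => ?_) ?_)).symm⟩
    · simp [h x hx, S.zero_symm (ha x hx)]
    · simp [hav, S.inv]
  · obtain ⟨c, rfl⟩ := Submodule.mem_span_singleton.1 h
    simp [S.zero_symm (ha u hu)]

end General

variable {B : V →ₗ[F] V →ₗ[F] F} [FiniteDimensional F V] (S : SpO B)
variable {Ω : Type*} [MulAction (GG B) Ω]
include S

theorem SpO.as_add {H : Subgroup (V ≃ₗ[F] V)} {u u' : V} (h : AS B H u) (h' : AS B H u')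
    (hn : B u u' ≠ 0) : AS B H (u + u') :=
  S.toSkH.as_add h' h (S.ne_symm hn) (S.alt _)

theorem sp_rad {ω : Ω} {v x : V} (hv : ¬ AS B (StB B ω) v) (h0 : x ≠ 0) (hvx : B v x = 0)
    (hx : AS B (StB B ω) x) (hE : ∀ β : F, eE S.toSkH v (β • x) 0 • ω = ω) :
    ∃ a ∈ Rad B ω, a ≠ 0 := by
  by_cases hc : ∀ u, AS B (StB B ω) u → B x u = 0
  · exact ⟨x, mem_Rad S.toSkH (Submodule.subset_span hx) hc, h0⟩
  push Not at hc
  obtain ⟨u₀, hu₀, hn₀⟩ := hc
  have mv : ∀ u, AS B (StB B ω) u → ∀ β : F,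
      AS B (StB B ω) (u + (β * B v u) • x + (β * B x u) • v) := fun u hu β => by
    have := (as_StB_smul S.toSkH (eE S.toSkH v (β • x) 0)).2 hu
    rw [hE, S.eE_apply (by simp [hvx])] at this
    simpa [smul_smul, mul_comm] using this
  have aff : ∀ u, AS B (StB B ω) u → B x u ≠ 0 → ∀ γ : F, AS B (StB B ω) (u + v + γ • x) := by
    intro u hu hn γ
    have := S.as_move hx (mv u hu (B x u)⁻¹) (c := (γ - (B x u)⁻¹ * B v u) / B x u) rfl
    simp only [map_add, map_smul, S.alt, S.zero_symm hvx, smul_zero, add_zero, div_mul_cancel₀ _ hn,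
      inv_mul_cancel₀ hn, one_smul] at this
    convert this using 1
    module
  have h1 : ∀ u, AS B (StB B ω) u → B x u ≠ 0 → B v u = 0 := fun u hu hn => by
    by_contra hc
    refine hv ?_
    simpa using S.as_add (aff u hu hn 0) (S.as_neg hu) (by simpa [S.alt] using hc)
  have h2 : AS B (StB B ω) (v + x) := by
    have := S.as_add (aff u₀ hu₀ hn₀ 1) (S.as_neg hu₀) (by simpa [S.alt, h1 u₀ hu₀ hn₀] using hn₀)
    convert this using 1
    module
  refine ⟨v, mem_Rad S.toSkH ?_ fun u hu => ?_, by rintro rfl; exact hv as_zero⟩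
  · simpa using Submodule.sub_mem _ (Submodule.subset_span (s := {u | AS B (StB B ω) u}) h2)
      (Submodule.subset_span (s := {u | AS B (StB B ω) u}) hx)
  by_contra hc
  have hn : B x u = 0 := by
    by_contra hn
    exact hc (h1 u hu hn)
  have h3 := mv u hu (B v u)⁻¹
  rw [inv_mul_cancel₀ hc, hn, mul_zero, zero_smul, add_zero, one_smul] at h3
  have := S.as_add (S.as_add h2 hu (by simpa [hn] using hc)) (S.as_neg h3)
    (by simpa [S.alt, hn, S.zero_symm hn, hvx] using hc)
  refine hv ?_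
  convert this using 1
  module

variable [Finite F] [Finite Ω]

theorem sp_card_le_of_point {a : V} (h0 : a ≠ 0) (ω : Ω)
    (hω : ∀ g : GG B, g • ω = ω → g.1 a ∈ Submodule.span F {a}) :
    Nat.card V - 1 ≤ Nat.card Ω * (Nat.card F - 1) := by
  have : Finite V := Module.finite_of_finite F
  have h1 := card_le_of_fix_point ω hω (fun x => x ≠ 0 ∧ True)
    (fun x hx => (S.move (NDs.top S.toSkH) trivial trivial h0 hx.1).imp fun _ h => h.1)
    (fun c => c ≠ 0 ∧ True) (fun c x _ h => ⟨fun e => h.1 (by rw [e, zero_smul]), trivial⟩)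
  have h2 := card_ne_zero_succ (fun _ : V => True) trivial
  have h3 := card_ne_zero_succ (fun _ : F => True) trivial
  rw [Nat.card_congr (Equiv.subtypeUnivEquiv fun _ => trivial)] at h2 h3
  rwa [← h2, ← h3, Nat.add_sub_cancel, Nat.add_sub_cancel]

theorem sp_card_le_of_line (h4 : finrank F V = 4) {ω : Ω} {a b : V} (ha : a ∈ Rad B ω) (hb : b ∈ Rad B ω)
    (h0 : a ≠ 0) (hab : b ∉ Submodule.span F {a}) :
    Nat.card V - 1 ≤ Nat.card Ω * (Nat.card F - 1) := by
  have : Finite V := Module.finite_of_finite F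
  have := Fintype.ofFinite F
  have h1 : Nat.card (Rad B ω) ≤ Nat.card F ^ 2 := by
    have := finrank_Wp_two S.toSkH h0 hab
    rw [← show finrank F (Wp B a b) = 2 by omega, ← Module.natCard_eq_pow_finrank]
    exact Nat.card_le_card_of_injective
      (Submodule.inclusion fun x hx => mem_Wp.2 ⟨Rad.iso ha hx, Rad.iso hb hx⟩) (Submodule.inclusion_injective _)
  have h2 : ∀ g : GG B, Nat.card (Rad B (g • ω)) ≤ Nat.card F ^ 2 := fun g =>
    le_trans (Nat.card_le_card_of_injective (fun x => (⟨(g⁻¹).1 x.1, by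
      simpa using Rad.smul S.toSkH x.2 g⁻¹⟩ : Rad B ω)) fun x y e =>
        Subtype.ext ((g⁻¹).1.injective (congrArg Subtype.val e))) h1
  obtain ⟨u, -, e1, e2⟩ := (NDs.top S.toSkH).exists_two S.toSkH trivial trivial h0 hab 0 1
  have h3 := card_mul_le_of_rel (X := {x : V // x ≠ 0 ∧ True}) (Ω := Ω)
    (fun x ω' => x.1 ∈ Rad B ω' ∧ Nat.card (Rad B ω') ≤ Nat.card F ^ 2) (a := Nat.card F + 1)
    (b := Nat.card F ^ 2 - 1) (fun x => by
      obtain ⟨g, hg, -⟩ := S.move (NDs.top S.toSkH) trivial trivial h0 x.2.1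
      let t : Option F → GG B := fun c => c.elim (eE S.toSkH b 0 1 * eE S.toSkH u 0 1) (eE S.toSkH u 0 ·)
      have ta : ∀ c, (t c).1 a = a := by
        rintro (_ | c) <;> simp [t, GG_mul_apply, S.tE_apply, S.zero_symm e1, Rad.iso hb ha]
      have tb : ∀ c, (t c).1 b = c.elim (-u) (b - · • u) := by
        rintro (_ | c) <;> simp [t, GG_mul_apply, S.tE_apply, S.one_symm e2, S.alt, e2, sub_eq_add_neg]
      rw [← Finite.card_option]
      refine Nat.card_le_card_of_injective (fun c => ⟨(g * t c) • ω, by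
        rw [← hg, ← ta c]; exact Rad.smul S.toSkH ha (g * t c), h2 _⟩) fun c c' e => ?_
      have e' : (g * t c) • ω = (g * t c') • ω := congrArg Subtype.val e
      have := Rad.iso (Rad.smul S.toSkH hb (g * t c)) (e' ▸ Rad.smul S.toSkH hb (g * t c'))
      rw [GG_mul_apply, GG_mul_apply, GG_iso, tb, tb] at this
      rcases c with _ | c <;> rcases c' with _ | c' <;>
        simp [S.alt, e2, S.one_symm e2] at this ⊢
      linear_combination this)
    (fun ω' => by
      by_cases h5 : Nat.card (Rad B ω') ≤ Nat.card F ^ 2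
      · have h6 := card_ne_zero_succ (fun x : V => x ∈ Rad B ω') (Submodule.zero_mem _)
        have h7 := Nat.card_le_card_of_injective (fun x : {x : {x : V // x ≠ 0 ∧ True} //
          x.1 ∈ Rad B ω' ∧ Nat.card (Rad B ω') ≤ Nat.card F ^ 2} =>
            (⟨x.1.1, x.1.2.1, x.2.1⟩ : {x : V // x ≠ 0 ∧ x ∈ Rad B ω'})) fun x y e =>
              Subtype.ext (Subtype.ext (congrArg (fun z => z.1) e))
        omega
      · exact (Nat.card_eq_zero.2 (Or.inl ⟨fun x => h5 x.2.2⟩)).le.trans (Nat.zero_le _))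
  have h5 := card_ne_zero_succ (fun _ : V => True) trivial
  rw [Nat.card_congr (Equiv.subtypeUnivEquiv fun _ => trivial)] at h5
  rw [← h5, Nat.add_sub_cancel]
  refine Nat.le_of_mul_le_mul_right (h3.trans_eq ?_) (Nat.succ_pos (Nat.card F))
  rw [mul_assoc, mul_comm (_ - 1), ← Nat.sq_sub_sq, one_pow]

/-- A non-trivial action has at least as many points as the projective space. -/
theorem sp_odd_min_card (h4 : 4 ≤ finrank F V) (hexc : 5 ≤ finrank F V ∨ 3 < Nat.card F) {ω : Ω}
    {g : GG B} (hg : g • ω ≠ ω) : Nat.card V - 1 ≤ Nat.card Ω * (Nat.card F - 1) := by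
  by_contra hc
  have hΩ : Nat.card Ω * (Nat.card F - 1) < Nat.card V := by omega
  by_cases hX : ∀ v w (h : HP B v w), ¬ AS B (StB B ω) v →
      (heis S.toSkH S.htr h).X ((heis S.toSkH S.htr h).orb ω) = ⊥
  · have hZ := XZ.of_heis S.htr hX
    let P : Submodule F V :=
      { carrier := {u | AS B (StB B ω) u}
        zero_mem' := as_zero
        add_mem' := fun ha hb => hZ.as_add ha hb (S.alt _)
        smul_mem' := fun c _ h => S.as_smul h c }
    have star : ∀ v ∉ P, ∀ u, B v u = 0 → ∃ α : F, u + α • v ∈ P := fun v hv u hu => by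
      obtain ⟨w, h⟩ := exists_HP S.toSkH (S.alt v) (by rintro rfl; exact hv as_zero)
      have hW := h.finrank_Wp S.toSkH
      obtain ⟨ω', e, h2⟩ := sp_typeA S h hΩ (by omega) (heis_Y_top.not.2 hv) (hX v w h hv)
      have hm := h.proj_mem S.toSkH u
      rw [hu, zero_smul, sub_zero] at hm
      obtain ⟨x, c, e'⟩ := (heis S.toSkH S.htr h).orb_eq_iff.1 e.symm
      have := (as_el_iff (S := S.toSkH) (htr := S.htr) (h := h) x c (by simp [hu, h.vv])).2 (h2 _ hm)
      rw [add_assoc, ← add_smul, e'] at this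
      exact ⟨_, this⟩
    obtain ⟨v, hv⟩ : ∃ v, v ∉ P := by
      by_contra hc
      push Not at hc
      exact hg (smul_eq_of_as S.toSkH (fun u _ => hc u) g)
    obtain ⟨u, -, e1, e2⟩ := exists_ker_list [B v] (W := ⊤) (S := Submodule.span F {v})
      (by have := finrank_span_single_le (F := F) v; simp only [List.length_singleton, finrank_top]; omega)
    obtain ⟨α, hα⟩ := star v hv u (e1 _ (by simp))
    obtain ⟨a, h0, ha⟩ := exists_perp_of_star S.toSkH S.alt hα (fun e => e2
      (Submodule.mem_span_singleton.2 ⟨-α, by rw [neg_smul, neg_eq_iff_add_eq_zero, add_comm, e]⟩)) hv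
      fun v hv x hx => by
        obtain ⟨α, hα⟩ := star v hv x hx
        simpa using Submodule.sub_mem _ (Submodule.mem_sup_left hα) (Submodule.mem_sup_right
          (Submodule.smul_mem _ α (Submodule.mem_span_singleton_self (R := F) v)))
    refine hc (sp_card_le_of_point S h0 ω fun g hg => (ha _).1 fun u hu => ?_)
    rw [← GG_apply_inv g u, GG_iso]
    refine (ha a).2 (Submodule.mem_span_singleton_self a) _ (?_ : AS B _ _)
    rwa [← as_StB_smul S.toSkH g, hg, GG_apply_inv]
  push Not at hX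
  obtain ⟨v, w, h, hv, hX⟩ := hX
  have hW := h.finrank_Wp S.toSkH
  have hO := (heis_Y_top (S := S.toSkH) (htr := S.htr) (h := h)).not.2 hv
  obtain ⟨hk, x, h0, h1, h2⟩ := (sp_X_cases S h hΩ (by omega) hO).resolve_left hX
  obtain ⟨x', e0, e1, e2, e3⟩ := sp_typeB S h hΩ (by omega) hO hk h0 h1 h2
  obtain ⟨a, ha, ha0⟩ := sp_rad S hv e0 e1 e2 e3
  by_cases h5 : ∀ b ∈ Rad B ω, b ∈ Submodule.span F {a}
  · exact hc (sp_card_le_of_point S ha0 ω fun g hg => h5 _ (hg ▸ Rad.smul S.toSkH ha g))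
  push Not at h5
  obtain ⟨b, hb, hab⟩ := h5
  exact hc (sp_card_le_of_line S (by omega) ha hb ha0 hab)

end Cfsg.Agent.H28
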