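import Cfsg.Agent.H28.SpOdd3

/-!
Transfer of the bounds for the degrees of permutation representations to `PSp m F`.
-/

set_option autoImplicit false
set_option linter.unusedSectionVars false
set_option linter.unusedSimpArgs false

namespace Cfsg.Agent.H28

open Module Classical Cfsg.Agent.H27 Cfsg.Agent.H66

variable {F : Type*} [Field F] {m : ℕ}

theorem exists_toPSp (m : ℕ) (F : Type*) [Field F] : ∃ π : GG (sympBilin m F) →* Cfsg.PSp m F,
    Function.Surjective π ∧ ∀ g, π g = 1 → ∀ a, g.1 a ∈ Submodule.span F {a} := by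
  let φ : GG (sympBilin m F) →* Matrix.symplecticGroup (Fin m) F :=
    { toFun := fun g => ⟨LinearMap.toMatrix' (g.1 : (Fin m ⊕ Fin m → F) →ₗ[F] (Fin m ⊕ Fin m → F)),
        mem_sp_iff.2 fun u v => by
          simpa only [LinearMap.toMatrix'_mulVec, LinearEquiv.coe_coe, sympBilin_apply] using GG_iso g u v⟩
      map_one' := Subtype.ext LinearMap.toMatrix'_id
      map_mul' := fun g h => Subtype.ext (LinearMap.toMatrix'_comp _ _) }
  have S : SkH (sympBilin m F) := skH_symp
  have alt : ∀ x, sympBilin m F x x = 0 := sympBilin_isAlt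
  refine ⟨(QuotientGroup.mk' _).comp φ, (QuotientGroup.mk'_surjective _).comp fun A => ?_,
    fun g hg a => ?_⟩
  · refine ⟨⟨toLE _ F ((Matrix.symplecticGroup (Fin m) F).subtype.toHomUnits A), ?_⟩, Subtype.ext ?_⟩
    · exact (comap_GG_symp (m := m) (F := F)).ge fun u v => sp_sympForm A u v
    · exact LinearMap.toMatrix'_toLin' _
  · by_cases h0 : a = 0
    · simp [h0]
    have h1 := congrArg Subtype.val (Subgroup.mem_center_iff.1 ((QuotientGroup.eq_one_iff _).1 hg)
      (φ (eE S a 0 1)))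
    rw [← map_mul, ← map_mul] at h1
    have h2 : eE S a 0 1 * g = g * eE S a 0 1 :=
      Subtype.ext (LinearEquiv.toLinearMap_injective (LinearMap.toMatrix'.injective h1))
    rw [conj_eE, map_zero, mul_left_inj] at h2
    obtain ⟨z, -, e⟩ := (NDs.top S).exists_one trivial h0
    have h3 := congrArg (fun k : GG (sympBilin m F) => k.1 z) h2
    simp only [tE_apply S (alt _) (map_one _), e, one_mul, one_smul, add_right_inj] at h3
    exact Submodule.mem_span_singleton.2 ⟨(sympBilin m F (g.1 a) z)⁻¹, by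
      rw [inv_smul_eq_iff₀ (by intro e; exact h0 (by simpa [e] using h3))]; exact h3⟩

variable [Finite F]

theorem psp_exists_index (hm : 1 ≤ m) : ∃ H : Subgroup (Cfsg.PSp m F),
    H.index * (Nat.card F - 1) = Nat.card F ^ (2 * m) - 1 := by
  obtain ⟨π, hπ, hk⟩ := exists_toPSp m F
  have S : SkH (sympBilin m F) := skH_symp
  have alt : ∀ x, sympBilin m F x x = 0 := sympBilin_isAlt
  have : Nonempty (Fin m) := ⟨⟨0, hm⟩⟩
  obtain ⟨a, ha⟩ := exists_ne (0 : Fin m ⊕ Fin m → F)
  obtain ⟨H, hH⟩ := exists_index_point π hπ ha (fun g hg => hk g hg a) (fun x => x ≠ 0 ∧ True)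
    fun x => ⟨fun hx => by
      obtain ⟨⟨d⟩, o⟩ := S.exists_dec_perp (NDs.top S)
      obtain ⟨g, hg, -, h1, -⟩ := S.move1 d o (i := 0) trivial trivial ha hx.1 (by rw [alt, alt])
      exact ⟨⟨g, (GG_alt alt S.nd).ge hg⟩, h1⟩, fun ⟨g, hg⟩ => hg ▸ ⟨g.1.map_ne_zero_iff.2 ha, trivial⟩⟩
  have h2 := card_ne_zero_succ (fun _ : Fin m ⊕ Fin m → F => True) trivial
  have h3 := card_ne_zero_succ (fun _ : F => True) trivial
  rw [Nat.card_congr (Equiv.subtypeUnivEquiv fun _ => trivial)] at h2 h3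
  rw [Nat.card_congr (Equiv.subtypeEquivRight (q := fun c : F => c ≠ 0 ∧ True) fun c => by
    simp [ha])] at hH
  refine ⟨H, ?_⟩
  rw [show Nat.card F ^ (2 * m) = Nat.card (Fin m ⊕ Fin m → F) by simp [Nat.card_fun, two_mul], ← h2,
    ← h3, Nat.add_sub_cancel, Nat.add_sub_cancel, hH]

/-- A bound for the subgroups of the isometry group gives the bound for `PSp`. -/
theorem psp_min_index_of {N c : ℕ} (h : ∀ H : Subgroup (GG (sympBilin m F)), H ≠ ⊤ → N ≤ H.index * c)
    {H : Subgroup (Cfsg.PSp m F)} (hH : H ≠ ⊤) : N ≤ H.index * c := by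
  obtain ⟨π, hπ, -⟩ := exists_toPSp m F
  rw [← H.index_comap_of_surjective hπ]
  exact h _ fun e => hH (Subgroup.comap_injective hπ (by rw [e, Subgroup.comap_top]))

theorem psp_odd_min_index (h2 : (2 : F) ≠ 0) (hm : 2 ≤ m) (hexc : 3 ≤ m ∨ 3 < Nat.card F)
    {H : Subgroup (Cfsg.PSp m F)} (hH : H ≠ ⊤) :
    Nat.card F ^ (2 * m) - 1 ≤ H.index * (Nat.card F - 1) := by
  obtain ⟨π, hπ, -⟩ := exists_toPSp m F
  obtain ⟨e, g, hg⟩ := exists_action_of_ne_top π hπ hH
  have : Finite (GG (sympBilin m F)) :=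
    Finite.of_injective (fun g => (g.1 : (Fin m ⊕ Fin m → F) → _)) fun _ _ e => GG_ext (congrFun e)
  rw [← e, show Nat.card F ^ (2 * m) = Nat.card (Fin m ⊕ Fin m → F) by simp [Nat.card_fun, two_mul]]
  exact sp_odd_min_card ⟨skH_symp, sympBilin_isAlt, h2⟩ (by simp; omega) (by simp; omega) hg

end Cfsg.Agent.H28
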