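import Cfsg.Agent.H28.SpOdd2

/-!
Small permutation representations of four-dimensional unitary groups: the annihilators `A` consist
of isotropic vectors.
-/

set_option autoImplicit false
set_option linter.unusedSectionVars false
set_option linter.unusedSimpArgs false

namespace Cfsg.Agent.H28

open Module Classical Cfsg.Agent.H27 Cfsg.Agent.H66 Heis
open Cfsg.Agent.H10 (cj cj_cj two_le_q card_fixed card_norm_int exists_skew)

namespace Heis

variable {G W Z : Type*} [Group G] [AddCommGroup W] [AddCommGroup Z] (H : Heis G W Z)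
variable {Ω : Type*} [MulAction G Ω] [Finite W] [Finite Z] [Finite Ω]

theorem sum_N_eq [Fintype W] (l : Z) :
    ∑ y, (H.N Ω y l).card = ∑ O ∈ H.N Ω 0 l, Nat.card (H.A O) := by
  have := H.sum_N (Ω := Ω) {l}
  rw [Finset.sum_singleton] at this
  rw [this, N, Finset.sum_filter]
  refine Finset.sum_congr rfl fun O _ => ?_
  by_cases h : l ∈ H.L O <;> simp [h, Finset.filter_singleton]

theorem card_orb_mem (T : Finset (H.Orb Ω)) :
    Nat.card {ω : Ω // H.orb ω ∈ T} = ∑ O ∈ T, Nat.card (H.A O) * Nat.card (H.L O) := by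
  rw [← Finset.sum_coe_sort, ← Nat.card_congr (Equiv.sigmaFiberEquiv
    fun ω : {ω : Ω // H.orb ω ∈ T} => (⟨H.orb ω, ω.2⟩ : T)), Nat.card_sigma]
  refine Finset.sum_congr rfl fun O _ => ?_
  rw [← H.card_fiber]
  exact Nat.card_congr ⟨fun a => ⟨a.1.1, congrArg Subtype.val a.2⟩,
    fun a => ⟨⟨a.1, a.2.symm ▸ O.2⟩, Subtype.ext a.2⟩, fun _ => rfl, fun _ => rfl⟩

end Heis

theorem NDs.noniso_of_perp {F V : Type*} [Field F] [AddCommGroup V] [Module F V] {σ : F →+* F}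
    {B : V →ₛₗ[σ] V →ₗ[F] F} [FiniteDimensional F V] (S : SkH B) {W : Submodule F V} (hW : NDs B W)
    (h2 : finrank F W = 2) {y z : V} (hy : y ∈ W) (hyy : B y y ≠ 0) (hz : z ∈ W) (h0 : z ≠ 0)
    (hyz : B y z = 0) : B z z ≠ 0 := fun e => by
  obtain ⟨c, rfl⟩ := Submodule.mem_span_singleton.1 (hW.mem_span_of_perp h2 hz h0 e hy (S.zero_symm hyz))
  simp [e] at hyy

variable {F V : Type*} [Field F] [Fintype F] {q : ℕ} [hF : Fact (Fintype.card F = q ^ 2)]
variable [AddCommGroup V] [Module F V] [FiniteDimensional F V]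

local notation "σ" => cj F q

theorem cases_of_eq_two (hq : q = 2) {ε : F} (h1 : ε * σ ε = 1) (h2 : ε ≠ 1) (c : F) :
    c = 0 ∨ c = 1 ∨ c = ε ∨ c = 1 + ε := by
  have h3 : ε ^ 3 = 1 := by rw [← h1, H10.mul_cj_eq_pow, hq]
  have h4 : ε ^ 2 + ε + 1 = 0 := mul_left_cancel₀ (sub_ne_zero.2 h2) (by linear_combination h3)
  have h5 : c ^ 4 = c := by have := FiniteField.pow_card c; rwa [hF.out, hq] at this
  have h6 : (4 : F) = 0 := by exact_mod_cast (show Fintype.card F = 4 by rw [hF.out, hq]; rfl) ▸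
    FiniteField.cast_card_eq_zero F
  have h7 : (2 : F) = 0 := pow_eq_zero_iff two_ne_zero |>.1 (by linear_combination h6)
  have : c * ((c - 1) * ((c - ε) * (c - (1 + ε)))) = 0 := by
    linear_combination h5 + (c ^ 2 - c) * h4 + (-(c ^ 3) - ε * c ^ 3 + ε * c ^ 2 + c) * h7
  simpa [sub_eq_zero] using this

theorem exists_norm_one_two (hq : q ≠ 2) : ∃ ε ε' : F, ε * σ ε = 1 ∧ ε' * σ ε' = 1 ∧ ε ≠ 1 ∧ ε' ≠ 1 ∧
    ε + σ ε ≠ ε' + σ ε' := by
  obtain ⟨ε, h1, h2⟩ := H10.exists_norm_one_ne_one F q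
  obtain ⟨ε', h3⟩ : ∃ ε' : {x : F // x * σ x = 1}, ε'.1 ∉ ({1, ε, σ ε} : Finset F) := by
    by_contra hc
    push Not at hc
    have := Nat.card_le_card_of_injective (fun x => (⟨x.1, hc x⟩ : ({1, ε, σ ε} : Finset F)))
      fun _ _ e => Subtype.ext (congrArg (fun z => z.1) e)
    rw [H10.card_norm_eq_one, Nat.card_eq_finsetCard] at this
    have := two_le_q F q
    have := Finset.card_le_three (a := 1) (b := ε) (c := σ ε)
    omega
  simp only [Finset.mem_insert, Finset.mem_singleton, not_or] at h3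
  refine ⟨ε, ε', h1, ε'.2, h2, h3.1, fun e => mul_ne_zero (sub_ne_zero.2 h3.2.1) (sub_ne_zero.2 h3.2.2) ?_⟩
  linear_combination h1 - ε'.2 - ε'.1 * e

variable {B : V →ₛₗ[cj F q] V →ₗ[F] F} (U : UH B)
variable {v w : V} (h : HP B v w) {Ω : Type*} [MulAction (GG B) Ω] [Finite Ω]

local notation "𝐇" => heis U.toSkH (uh_htr U) h

variable (hk : finrank F (Wp B v w) = 2)
include hk

include U h in
theorem u4_cnt {μ : F} (hμ : σ μ = -μ) :
    Nat.card {z : Wp B v w // B z z = μ} + q = q ^ 3 + if μ = 0 then q ^ 2 else 0 := by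
  have h1 := NDs.card_norm U (h.nd U.toSkH) hμ
  have h2 := two_le_q F q
  rw [hk] at h1
  zify
  refine mul_left_cancel₀ (show (q : ℤ) ≠ 0 by omega) ?_
  split_ifs at h1 ⊢ <;> linear_combination h1

variable (hΩ : Nat.card Ω < (q + 1) * (q ^ 3 + 1))
include hΩ

theorem u4_sum_le [Fintype (Wp B v w)] {l : Fx σ} (hl : l ≠ 0) :
    ∑ y, ((𝐇).N Ω y l).card ≤ q ^ 3 + q ^ 2 + 1 := by
  have h1 := (sum_N_bound (Ω := Ω) U h (by omega) hl).trans_lt hΩ
  have h2 := two_le_q F q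
  by_contra hc
  have := Nat.mul_le_mul_left q (not_le.1 hc)
  nlinarith

theorem u4_card_N_noniso {y : Wp B v w} (hy : B y y ≠ 0) {l : Fx σ} (hl : l ≠ 0) :
    ((𝐇).N Ω y l).card ≤ 1 := by
  have := Fintype.ofFinite (Wp B v w)
  have h1 := sum_class (Ω := Ω) U h (y := y) (by rintro rfl; simp at hy) (Or.inr ⟨hy, hk.ge⟩) l
  have h2 := u4_sum_le U h hk hΩ hl
  have h3 := Finset.sum_le_sum_of_subset (f := fun z => ((𝐇).N Ω z l).card) (Finset.subset_univ
    (insert 0 (Finset.univ.filter fun z : Wp B v w => B z z = B y y)))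
  rw [Finset.sum_insert (by simpa using hy.symm)] at h3
  have h4 := u4_cnt U h hk (U.norm_skew y)
  have h5 := Finset.card_le_card ((𝐇).N_subset (Ω := Ω) y l)
  rw [if_neg hy] at h4
  by_contra hc
  have h6 := Nat.mul_le_mul_right (Nat.card {z : Wp B v w // B z z = B y y}) (not_le.1 hc)
  obtain ⟨a, ha⟩ := Nat.exists_eq_add_of_le (two_le_q F q)
  have h7 : q ^ 2 + 2 * q ≤ q ^ 3 := by rw [ha]; nlinarith [Nat.zero_le (a ^ 3), Nat.zero_le (a ^ 2)]
  omega

theorem u4_norm_eq (hq : q ≠ 2) {y y' : Wp B v w} (hy : B y y ≠ 0) (hy' : B y' y' ≠ 0) {l : Fx σ}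
    (hl : l ≠ 0) {O O' : (𝐇).Orb Ω} (hO : O ∈ (𝐇).N Ω y l) (hO' : O' ∈ (𝐇).N Ω y' l) :
    B y y = B y' y' := by
  by_contra hn
  have := Fintype.ofFinite (Wp B v w)
  have h1 := sum_class (Ω := Ω) U h (y := y) (by rintro rfl; simp at hy) (Or.inr ⟨hy, hk.ge⟩) l
  have h1' := sum_class (Ω := Ω) U h (y := y') (by rintro rfl; simp at hy') (Or.inr ⟨hy', hk.ge⟩) l
  have h2 := u4_sum_le U h hk hΩ hl
  have h3 := Finset.sum_le_sum_of_subset (f := fun z => ((𝐇).N Ω z l).card) (Finset.subset_univ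
    ((Finset.univ.filter fun z : Wp B v w => B z z = B y y) ∪
      Finset.univ.filter fun z : Wp B v w => B z z = B y' y'))
  rw [Finset.sum_union (Finset.disjoint_filter.2 fun z _ e e' => hn (e.symm.trans e'))] at h3
  have h4 := u4_cnt U h hk (U.norm_skew y)
  have h4' := u4_cnt U h hk (U.norm_skew y')
  rw [if_neg hy] at h4
  rw [if_neg hy'] at h4'
  have h5 := Nat.mul_le_mul_right (Nat.card {z : Wp B v w // B z z = B y y})
    (Finset.card_pos.2 ⟨O, hO⟩)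
  have h6 := Nat.mul_le_mul_right (Nat.card {z : Wp B v w // B z z = B y' y'})
    (Finset.card_pos.2 ⟨O', hO'⟩)
  obtain ⟨a, ha⟩ := Nat.exists_eq_add_of_le (show 3 ≤ q by have := two_le_q F q; omega)
  have h7 : q ^ 2 + 2 * q + 2 ≤ q ^ 3 := by rw [ha]; nlinarith [Nat.zero_le (a ^ 3), Nat.zero_le (a ^ 2)]
  omega

theorem u4_proj (h2 : (2 : F) = 0) {y z : Wp B v w} (hy : B y y ≠ 0) {l : Fx σ} (hl : l ≠ 0)
    {O : (𝐇).Orb Ω} (hO : O ∈ (𝐇).N Ω y l) (hz : z ∈ (𝐇).A O) {ε : F} (hε : ε * σ ε = 1) :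
    (1 - ε) • (z - (B y z / B y y) • y) ∈ (𝐇).A O := by
  obtain ⟨z', hz'⟩ : ∃ z', z' = z - (B y z / B y y) • y := ⟨_, rfl⟩
  have e1 : B y z' = 0 := by simp [hz', div_mul_cancel₀ _ hy]
  rw [← hz']
  by_cases h0 : z' = 0
  · simp [h0]
  have e2 := NDs.noniso_of_perp U.toSkH (h.nd U.toSkH) hk y.2 hy z'.2 (by simpa using h0) e1
  obtain ⟨r, rfl⟩ := exists_sq_eq_of_two_eq_zero h2 ε
  obtain ⟨t, rfl⟩ := exists_sq_eq_of_two_eq_zero h2 r
  have ht : t * σ t = 1 := by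
    refine sub_eq_zero.1 (pow_eq_zero_iff four_ne_zero |>.1 ?_)
    simp only [map_pow] at hε
    linear_combination hε + (-2 * (t * σ t) ^ 3 + 3 * (t * σ t) ^ 2 - 2 * (t * σ t) + 1) * h2
  have ht0 : t ≠ 0 := left_ne_zero_of_mul_eq_one ht
  have ht1 : σ t = t⁻¹ := eq_inv_of_mul_eq_one_right ht
  obtain ⟨g₁, i₁, d₁, f₁⟩ := h.exists_diag U.toSkH (inv_ne_zero ht0)
  obtain ⟨g₂, i₂, d₂, f₂⟩ := U.exists_refl hy (l := t⁻¹) (by rw [map_inv₀, ← mul_inv, ht, inv_one])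
  obtain ⟨g₃, i₃, d₃, f₃⟩ := U.exists_refl e2 (l := t ^ 3) (by rw [map_pow, ← mul_pow, ht, one_pow])
  let g : GG B := ⟨g₁ * g₂ * g₃, mul_mem (mul_mem i₁ i₂) i₃, mem_SLV.2 (by
    rw [det_mul', det_mul', d₁, d₂, d₃, map_inv₀, ht1]
    field_simp)⟩
  have hg : ∀ z, g.1 z = g₁ (g₂ (g₃ z)) := fun _ => rfl
  have L : Lev σ v w g t⁻¹ := ⟨inv_ne_zero ht0, by
      simp [hg, f₁, f₂, f₃, U.zero_symm z'.2.1, U.zero_symm y.2.1, h.vv, h.wv U.toSkH, sub_smul], by
      simp [hg, f₁, f₂, f₃, U.zero_symm z'.2.2, U.zero_symm y.2.2, h.ww, h.vw, sub_smul]⟩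
  have gy : g.1 y = t⁻¹ • (y : V) := by
    have : g₂ y = t⁻¹ • (y : V) := by rw [f₂, div_mul_cancel₀ _ hy]; module
    simp [hg, f₁, f₃, U.zero_symm e1, this, Wp_v y, Wp_w y]
  have gz : g.1 z' = t ^ 3 • (z' : V) := by
    have : g₃ z' = t ^ 3 • (z' : V) := by rw [f₃, div_mul_cancel₀ _ e2]; module
    simp [hg, f₁, f₂, this, e1, Wp_v z', Wp_w z']
  have e3 : L.nm U.toSkH (uh_htr U) h • O = O := Finset.card_le_one.1 (u4_card_N_noniso U h hk hΩ hy hl) _
    ((L.mem_N (by rw [gy, smul_smul, inv_inv, mul_inv_cancel₀ ht0, one_smul])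
      (by rw [map_inv₀, ← mul_inv, ht, inv_one, one_mul])).2 hO) _ hO
  have e4 := (L.mem_A (O := O) (y := z) (y' := z - (1 - (t ^ 2) ^ 2) • z') (by
    have : (z : V) = z' + (B y z / B y y) • (y : V) := by simp [hz']
    generalize B y z / B y y = c at this
    rw [Submodule.coe_sub, Submodule.coe_smul, this, map_add, map_smul, gy, gz]
    match_scalars <;> field_simp
    ring)).2 hz
  rw [e3] at e4
  simpa using sub_mem hz e4

theorem u4_iso {O : (𝐇).Orb Ω} (hO : (𝐇).Y O ≠ ⊤) {y : Wp B v w} (hyA : y ∈ (𝐇).A O) : B y y = 0 := by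
  by_contra hy
  obtain ⟨l, hl, hl0⟩ := (𝐇).exists_L hO
  have hN := (𝐇).mem_N.2 ⟨hyA, hl⟩
  by_cases h2 : (2 : F) = 0
  swap
  · have hq : q ≠ 2 := by
      rintro rfl
      have := card_mod_two_of_two_ne_zero h2
      rw [hF.out] at this
      omega
    obtain ⟨s, hs, e⟩ := exists_nrm U (neg_ne_zero.2 hl0) hl0
    obtain ⟨g, L⟩ := exists_lev U h (by omega) hs
    have hl' : (l : F) ≠ 0 := fun e => hl0 (Subtype.ext e)
    have e1 : s * σ s = -1 := mul_right_cancel₀ hl' (by rw [e]; simp)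
    have e2 : B (L.mapW U.toSkH s⁻¹ y) (L.mapW U.toSkH s⁻¹ y) = -B y y := by
      simp only [Lev.mapW, map_smul, LinearMap.map_smulₛₗ, LinearMap.smul_apply, smul_eq_mul, GG_iso,
        map_inv₀]
      rw [← mul_assoc, ← mul_inv, e1, inv_neg, inv_one, neg_one_mul]
    have := u4_norm_eq U h hk hΩ hq hy (y' := L.mapW U.toSkH s⁻¹ y) (by rwa [e2, neg_ne_zero]) hl0 hN
      ((L.mem_N rfl e).2 ((𝐇).mem_N.2 ⟨hyA, neg_mem hl⟩))
    exact mul_ne_zero h2 hy (by linear_combination this + e2)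
  obtain ⟨z, hz, h0⟩ : ∃ z ∈ (𝐇).A O, z - (B y z / B y y) • y ≠ 0 := by
    by_contra hc
    push Not at hc
    obtain ⟨y', hy', e1, e2⟩ := NDs.exists_noniso_perp U (h.nd U.toSkH) y.2 (Or.inr ⟨hy, hk.ge⟩)
    have e3 : ∀ a ∈ (𝐇).A O, B y' a = 0 := fun a ha => by
      rw [sub_eq_zero.1 (hc a ha)]; simp [U.zero_symm e1]
    have := e3 _ (heis_smul_mem_A hl (x := ⟨y', hy'⟩) (heis_mem_X_of_A fun a ha => by simp [e3 a ha]))
    exact hl0 (by simpa [e2] using this)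
  have key := fun ε (hε : ε * σ ε = 1) => u4_proj U h hk hΩ h2 hy hl0 hN hz hε
  have e1 : B y (z - (B y z / B y y) • y : Wp B v w) = 0 := by simp [div_mul_cancel₀ _ hy]
  generalize z - (B y z / B y y) • y = z' at h0 key e1
  have e2 := NDs.noniso_of_perp U.toSkH (h.nd U.toSkH) hk y.2 hy z'.2 (by simpa using h0) e1
  have nm : ∀ ε : F, ε * σ ε = 1 → B ((1 - ε) • z' : Wp B v w) ((1 - ε) • z' : Wp B v w) =
      (2 - (ε + σ ε)) * B z' z' := fun ε hε => by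
    simp only [Submodule.coe_smul, map_smul, LinearMap.map_smulₛₗ, LinearMap.smul_apply, smul_eq_mul,
      map_sub, map_one]
    linear_combination B z' z' * hε
  have nm' : ∀ ε : F, ε ≠ 1 → B ((1 - ε) • z' : Wp B v w) ((1 - ε) • z' : Wp B v w) ≠ 0 := fun ε hε => by
    have := sub_ne_zero.2 hε.symm
    simpa [-map_sub, e2] using this
  by_cases hq : q = 2
  swap
  · obtain ⟨ε, ε', h3, h4, h5, h6, h7⟩ := exists_norm_one_two (F := F) hq
    have := (u4_norm_eq U h hk hΩ hq (nm' ε h5) (nm' ε' h6) hl0 ((𝐇).mem_N.2 ⟨key ε h3, hl⟩)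
      ((𝐇).mem_N.2 ⟨key ε' h4, hl⟩))
    rw [nm ε h3, nm ε' h4, mul_left_inj' e2, sub_right_inj] at this
    exact h7 this
  obtain ⟨ε, h3, h4⟩ := H10.exists_norm_one_ne_one F q
  have h5 : ε ^ 2 * σ (ε ^ 2) = 1 := by rw [map_pow, ← mul_pow, h3, one_pow]
  have cl : ∀ x : Wp B v w, (∀ ε, ε * σ ε = 1 → (1 - ε) • x ∈ (𝐇).A O) → ∀ c : F, c • x ∈ (𝐇).A O := by
    intro x hx c
    have a1 := hx ε h3
    have a2 := hx _ h5
    rw [← mul_div_cancel₀ c (sub_ne_zero.2 h4.symm)]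
    rcases cases_of_eq_two hq h3 h4 (c / (1 - ε)) with e | e | e | e <;> rw [e]
    · simp
    · rwa [mul_one]
    · convert sub_mem a2 a1 using 1
      module
    · convert a2 using 2
      ring
  have c1 := cl z' key
  have c2 := cl y fun ε hε => by
    simpa [U.zero_symm e1] using u4_proj U h hk hΩ h2 (y := z') e2 hl0
      ((𝐇).mem_N.2 ⟨by simpa using c1 1, hl⟩) hyA hε
  have := Fintype.ofFinite (Wp B v w)
  have h6 := Nat.card_le_card_of_injective (fun p : F × F =>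
    (⟨p.1 • y + p.2 • z', add_mem (c2 _) (c1 _)⟩ : (𝐇).A O)) fun p p' e => by
      have e' : p.1 • (y : V) + p.2 • (z' : V) = p'.1 • y + p'.2 • z' := congrArg (fun a => (a.1 : V)) e
      exact Prod.ext (by simpa [e1, hy] using congrArg (B y) e')
        (by simpa [U.zero_symm e1, e2] using congrArg (B z') e')
  have h7 := u4_sum_le U h hk hΩ hl0
  rw [(𝐇).sum_N_eq] at h7
  have h8 := Finset.single_le_sum (f := fun O => Nat.card ((𝐇).A O)) (fun _ _ => Nat.zero_le _)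
    ((𝐇).N_subset y l hN)
  rw [Nat.card_prod, Nat.card_eq_fintype_card, hF.out] at h6
  subst hq
  omega

end Cfsg.Agent.H28
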