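import Cfsg.Agent.H28.U4a

/-!
Small permutation representations of four-dimensional unitary groups: `Q_v` has exactly `q + 1`
orbits not fixed by `Z_v`, each with `q ^ 3` points.
-/

set_option autoImplicit false
set_option linter.unusedSectionVars false
set_option linter.unusedSimpArgs false

namespace Cfsg.Agent.H28

open Module Classical Cfsg.Agent.H27 Cfsg.Agent.H66 Heis
open Cfsg.Agent.H10 (cj cj_cj two_le_q card_fixed card_norm_int exists_skew)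

variable {F V : Type*} [Field F] [Fintype F] {q : ℕ} [hF : Fact (Fintype.card F = q ^ 2)]
variable [AddCommGroup V] [Module F V] [FiniteDimensional F V]

local notation "σ" => cj F q

variable {B : V →ₛₗ[cj F q] V →ₗ[F] F} (U : UH B)
variable {v w : V} (h : HP B v w) {Ω : Type*} [MulAction (GG B) Ω] [Finite Ω]

local notation "𝐇" => heis U.toSkH (uh_htr U) h

theorem card_N_smul {y : Wp B v w} (h0 : y ≠ 0) (hy : B y y = 0) {s a : F} (hs : s * σ s = 1) (ha : a ≠ 0)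
    (hsa : σ (a * s) = a * s) (l : Fx σ) :
    ((𝐇).N Ω ((s⁻¹ * a) • y) l).card = ((𝐇).N Ω y l).card := by
  have hs0 : s ≠ 0 := left_ne_zero_of_mul_eq_one hs
  obtain ⟨z, hz, e⟩ := NDs.exists_one (h.nd U.toSkH) y.2 (by simpa using h0)
  obtain ⟨y', hy', e1, e2⟩ := U.exists_partner hy y.2 hz (e ▸ one_ne_zero)
  have hp : HP B y y' := ⟨hy, e1, e2⟩
  obtain ⟨g₁, i₁, d₁, f₁⟩ := h.exists_diag U.toSkH hs0
  obtain ⟨g₂, i₂, d₂, f₂⟩ := hp.exists_diag U.toSkH ha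
  let g : GG B := ⟨g₁ * g₂, mul_mem i₁ i₂, mem_SLV.2 (by
    have := (map_ne_zero σ).2 hs0
    have := (map_ne_zero σ).2 ha
    rw [det_mul', d₁, d₂]
    field_simp
    rw [map_mul] at hsa
    linear_combination -hsa)⟩
  have hg : ∀ z, g.1 z = g₁ (g₂ z) := fun _ => rfl
  have L : Lev σ v w g s := ⟨hs0, by
      simp [hg, f₁, f₂, U.zero_symm hy'.1, U.zero_symm y.2.1, h.vv, h.wv U.toSkH, sub_smul], by
      simp [hg, f₁, f₂, U.zero_symm hy'.2, U.zero_symm y.2.2, h.ww, h.vw, sub_smul]⟩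
  exact L.card_N (by simp [hg, f₁, f₂, hy, hp.wv U.toSkH, Wp_v y, Wp_w y, sub_smul, smul_smul])
    (by rw [hs, one_mul])

theorem exists_card_N_eq {y y' : Wp B v w} (h0 : y ≠ 0) (h0' : y' ≠ 0) (hy : B y y = 0)
    (hy' : B y' y' = 0) : ∃ a : F, a ≠ 0 ∧ ∀ l, ((𝐇).N Ω y' l).card = ((𝐇).N Ω (a • y) l).card := by
  obtain ⟨⟨d⟩, o⟩ := U.toSkH.exists_dec_perp (h.nd U.toSkH)
  obtain ⟨g, hg, -, h1, h2⟩ := U.toSkH.move1 d o (i := 0) y'.2 y.2 (by simpa using h0') (by simpa using h0)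
    (hy'.trans hy.symm)
  have h3 : ∀ z, (∀ y ∈ Wp B v w, B y z = 0) → g z = z := fun z hz =>
    h2 z (d.ne (by decide) (show z ∈ ![Wp B v w, perp B (Wp B v w)] 1 from hz))
  obtain ⟨z, hz, e⟩ := NDs.exists_one (h.nd U.toSkH) y.2 (by simpa using h0)
  obtain ⟨x, hx, e1, e2⟩ := U.exists_partner hy y.2 hz (e ▸ one_ne_zero)
  have hp : HP B y x := ⟨hy, e1, e2⟩
  have h4 := U.det g hg
  obtain ⟨a, ha, e3⟩ := H10.exists_div_cj_eq (t := σ (LinearMap.det (g : V →ₗ[F] V)))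
    (by rw [U.inv, mul_comm, h4])
  obtain ⟨g₂, i₂, d₂, f₂⟩ := hp.exists_diag U.toSkH ha
  let k : GG B := ⟨g₂ * g, mul_mem i₂ hg, mem_SLV.2 (by
    rw [det_mul', d₂, ← div_eq_mul_inv, e3, mul_comm, h4])⟩
  have hk : ∀ z, k.1 z = g₂ (g z) := fun _ => rfl
  refine ⟨a, ha, fun l => ((Lev.of_fix (g := k) ?_ ?_).card_N ?_ (by simp)).symm⟩
  · simp [hk, h3 v fun z hz => U.zero_symm hz.1, f₂, U.zero_symm hx.1, U.zero_symm y.2.1]
  · simp [hk, h3 w fun z hz => U.zero_symm hz.2, f₂, U.zero_symm hx.2, U.zero_symm y.2.2]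
  · simp [hk, h1, f₂, hy, hp.wv U.toSkH, sub_smul]

variable (hk : finrank F (Wp B v w) = 2) (hΩ : Nat.card Ω < (q + 1) * (q ^ 3 + 1))
include hk hΩ

theorem u4_skew_mem {O : (𝐇).Orb Ω} (hO : (𝐇).Y O ≠ ⊤) {a : Wp B v w} (ha : a ∈ (𝐇).A O) {ζ : F}
    (hζ : σ ζ = -ζ) : ζ • a ∈ (𝐇).X O ∧ ζ • a ∈ (𝐇).A O := by
  have key : ∀ ζ : F, σ ζ = -ζ → ζ • a ∈ (𝐇).X O := fun ζ hζ => heis_mem_X_of_A fun y hy => by
    have := u4_iso U h hk hΩ hO (add_mem ha hy)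
    simp only [Submodule.coe_add, map_add, LinearMap.add_apply, u4_iso U h hk hΩ hO ha,
      u4_iso U h hk hΩ hO hy, U.skew a y] at this
    rw [← AddChar.map_zero_eq_one (psi F)]
    congr 1
    simp only [Submodule.coe_smul, LinearMap.map_smulₛₗ, LinearMap.smul_apply, smul_eq_mul, map_mul,
      hζ, map_neg]
    linear_combination -ζ * this
  obtain ⟨l, hl, hl0⟩ := (𝐇).exists_L hO
  have hl' : (l : F) ≠ 0 := fun e => hl0 (Subtype.ext e)
  refine ⟨key ζ hζ, ?_⟩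
  have := heis_smul_mem_A hl (key (ζ / l) (by rw [map_div₀, hζ, Fx_fix, neg_div]))
  rwa [smul_smul, mul_div_cancel₀ _ hl'] at this

theorem u4_A_le_X {O : (𝐇).Orb Ω} (hO : (𝐇).Y O ≠ ⊤) {a : Wp B v w} (ha : a ∈ (𝐇).A O) :
    a ∈ (𝐇).X O := by
  obtain ⟨ζ, h0, hζ⟩ := exists_skew F q
  simpa [h0] using (u4_skew_mem U h hk hΩ hO (u4_skew_mem U h hk hΩ hO ha (ζ := ζ⁻¹)
    (by rw [map_inv₀, hζ, inv_neg])).2 hζ).1

theorem u4_card_A {O : (𝐇).Orb Ω} (hO : (𝐇).Y O ≠ ⊤) : Nat.card ((𝐇).A O) = q ^ 2 := by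
  obtain ⟨l, hl, hl0⟩ := (𝐇).exists_L hO
  have h1 := (𝐇).card_A O
  rw [← le_antisymm (AddSubgroup.card_le_of_le fun _ => u4_A_le_X U h hk hΩ hO) (card_X_le_A hl hl0),
    Module.natCard_eq_pow_finrank (K := F) (V := Wp B v w), hk, Nat.card_eq_fintype_card (α := F), hF.out,
    ← sq] at h1
  exact Nat.pow_left_injective two_ne_zero h1

theorem u4_cover {O : (𝐇).Orb Ω} {l : Fx σ} (hl : l ∈ (𝐇).L O) (hl0 : l ≠ 0) {y : Wp B v w}
    (h0 : y ≠ 0) (hy : B y y = 0) : 1 ≤ ((𝐇).N Ω y l).card := by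
  have hO := heis_Y_ne_top hl hl0
  obtain ⟨x, hx, hx0⟩ := exists_mem_not_mem ((𝐇).A O) {0} (by
    have := two_le_q F q
    rw [u4_card_A U h hk hΩ hO, Finset.card_singleton]; nlinarith)
  rw [Finset.mem_singleton] at hx0
  have hxx := u4_iso U h hk hΩ hO hx
  obtain ⟨a, ha, e⟩ := exists_card_N_eq (Ω := Ω) U h hx0 h0 hxx hy
  rw [e]
  by_cases h2 : (2 : F) = 0
  · obtain ⟨r, rfl⟩ := exists_sq_eq_of_two_eq_zero h2 a
    obtain ⟨b, rfl⟩ := exists_sq_eq_of_two_eq_zero h2 r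
    have hb : b ≠ 0 := by rintro rfl; simp at ha
    have hb' : σ b ≠ 0 := (map_ne_zero _).2 hb
    rw [show (b ^ 2) ^ 2 = (σ b / b)⁻¹ * (b ^ 3 * σ b) by field_simp, card_N_smul U h hx0 hxx
      (by rw [map_div₀, U.inv]; field_simp) (by positivity)
      (by simp only [map_mul, map_div₀, map_pow, U.inv]; field_simp)]
    exact Finset.card_pos.2 ⟨O, (𝐇).mem_N.2 ⟨hx, hl⟩⟩
  · obtain ⟨ζ, hζ0, hζ⟩ := exists_skew F q
    have h1 := (u4_skew_mem U h hk hΩ hO hx (ζ := (a - σ a) / 2)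
      (by rw [map_div₀, map_sub, U.inv, map_ofNat]; ring)).2
    have h3 := (u4_skew_mem U h hk hΩ hO (u4_skew_mem U h hk hΩ hO hx hζ).2 (ζ := (a + σ a) / 2 / ζ)
      (by rw [map_div₀, map_div₀, map_add, U.inv, map_ofNat, hζ]; ring)).2
    refine Finset.card_pos.2 ⟨O, (𝐇).mem_N.2 ⟨?_, hl⟩⟩
    convert add_mem h1 h3 using 1
    rw [smul_smul, ← add_smul]
    congr 1
    field_simp
    ring

theorem u4_sum_eq [Fintype (Wp B v w)] {l : Fx σ} (hl0 : l ≠ 0) :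
    ∑ y, ((𝐇).N Ω y l).card = ((𝐇).N Ω 0 l).card * q ^ 2 := by
  rw [(𝐇).sum_N_eq, Finset.sum_congr rfl fun O hO =>
    u4_card_A U h hk hΩ (heis_Y_ne_top ((𝐇).mem_N.1 hO).2 hl0), Finset.sum_const, smul_eq_mul]

theorem u4_card_N {O : (𝐇).Orb Ω} (hO : (𝐇).Y O ≠ ⊤) {l : Fx σ} (hl0 : l ≠ 0) :
    ((𝐇).N Ω 0 l).card = q + 1 ∧ ∀ y : Wp B v w, y ≠ 0 → B y y = 0 → ((𝐇).N Ω y l).card ≤ 1 := by
  obtain ⟨l₀, hl₀, h0⟩ := (𝐇).exists_L hO
  obtain ⟨s, hs, e⟩ := exists_nrm U h0 hl0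
  obtain ⟨g, L⟩ := exists_lev U h (by omega) hs
  have hl := (L.mem_L (O := O) e).2 hl₀
  have := Fintype.ofFinite (Wp B v w)
  let _ : DecidableEq (Wp B v w) := fun a b => propDecidable (a = b)
  have h1 := u4_sum_le U h hk hΩ hl0
  have h2 := u4_sum_eq U h hk hΩ hl0
  have h3 := u4_cnt U h hk (μ := 0) (by simp)
  rw [if_pos rfl, Nat.card_eq_fintype_card, Fintype.card_subtype,
    ← Finset.card_erase_add_one (a := 0) (by simp)] at h3
  generalize hT : (Finset.univ.filter fun z : Wp B v w => B z z = 0).erase 0 = T at h3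
  have hT' : ∀ y, y ∈ T ↔ y ≠ 0 ∧ B y y = 0 := fun y => by simp [← hT]
  have h4 := Finset.sum_le_sum_of_subset (f := fun z => ((𝐇).N Ω z l).card) (Finset.subset_univ
    (insert 0 T))
  rw [Finset.sum_insert (by simp [hT'])] at h4
  have h5 : ∀ y ∈ T, 1 ≤ ((𝐇).N Ω y l).card := fun y hy =>
    u4_cover U h hk hΩ hl hl0 ((hT' y).1 hy).1 ((hT' y).1 hy).2
  have h6 := Finset.card_nsmul_le_sum _ _ _ h5
  rw [smul_eq_mul, mul_one] at h6
  obtain ⟨a, ha⟩ := Nat.exists_eq_add_of_le (two_le_q F q)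
  have h7 : ((𝐇).N Ω 0 l).card = q + 1 := by
    generalize ((𝐇).N Ω 0 l).card = n at *
    refine le_antisymm (not_lt.1 fun hc => ?_) (not_lt.1 fun hc => ?_)
    · have := Nat.mul_le_mul_right (q ^ 2) hc
      nlinarith
    · have h8 : T.card + n ≤ n * q ^ 2 := by omega
      obtain ⟨b, hb⟩ : ∃ b, q ^ 2 = b + 1 := ⟨q ^ 2 - 1, by
        have := Nat.one_le_pow 2 q (by omega)
        omega⟩
      have := Nat.mul_le_mul_right b (Nat.lt_succ_iff.1 hc)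
      have h9 : q ^ 3 = q * b + q := by rw [pow_succ', hb]; ring
      rw [hb] at h3 h8
      have : 0 < b := by nlinarith
      nlinarith
  refine ⟨h7, fun y hy hyy => not_lt.1 fun hc => ?_⟩
  have h8 := Finset.sum_lt_sum (f := fun _ => 1) h5 ⟨y, (hT' y).2 ⟨hy, hyy⟩, hc⟩
  rw [Finset.sum_const, smul_eq_mul, mul_one] at h8
  rw [h7] at h2 h4
  have h9 : (q + 1) * q ^ 2 = q ^ 3 + q ^ 2 := by ring
  omega

theorem u4_mem_L {O : (𝐇).Orb Ω} (hO : (𝐇).Y O ≠ ⊤) (l : Fx σ) : l ∈ (𝐇).L O := by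
  by_contra hc
  have hl0 : l ≠ 0 := by rintro rfl; exact hc (zero_mem _)
  have := Fintype.ofFinite (Wp B v w)
  have := Fintype.ofFinite (Fx σ)
  let _ : DecidableEq (Fx σ) := fun a b => propDecidable (a = b)
  have h1 := (𝐇).card_eq_sum_N (Ω := Ω)
  rw [← Finset.add_sum_erase _ _ (Finset.mem_univ 0), Finset.sum_congr (s₁ := Finset.univ.erase 0) rfl
    (g := fun _ => (q + 1) * q ^ 2) fun l hl => by
      rw [u4_sum_eq U h hk hΩ (Finset.mem_erase.1 hl).1, (u4_card_N U h hk hΩ hO (Finset.mem_erase.1 hl).1).1],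
    Finset.sum_const, Finset.card_erase_of_mem (Finset.mem_univ _), Finset.card_univ,
    ← Nat.card_eq_fintype_card, card_Fx, (𝐇).sum_N_eq, smul_eq_mul] at h1
  have h2 := Finset.sum_le_sum_of_subset (f := fun O => Nat.card ((𝐇).A O))
    (s := insert O ((𝐇).N Ω 0 l)) (t := (𝐇).N Ω 0 0) fun O _ => (𝐇).mem_N.2 ⟨zero_mem _, zero_mem _⟩
  rw [Finset.sum_insert fun e => hc ((𝐇).mem_N.1 e).2, ← (𝐇).sum_N_eq, u4_sum_eq U h hk hΩ hl0,
    (u4_card_N U h hk hΩ hO hl0).1, u4_card_A U h hk hΩ hO] at h2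
  obtain ⟨a, ha⟩ := Nat.exists_eq_add_of_le (two_le_q F q)
  rw [h1] at hΩ
  rw [show q - 1 = a + 1 by omega] at hΩ
  generalize ∑ O ∈ (𝐇).N Ω 0 0, Nat.card ((𝐇).A O) = n at *
  rw [ha] at h2 hΩ
  nlinarith [Nat.zero_le (a ^ 2)]

include h in
theorem u4_eq_zero {ω : Ω} (hv : ¬ AS B (StB B ω) v) {c : F} (hc : σ c = c)
    (e : eE U.toSkH v 0 c • ω = ω) : c = 0 :=
  eq_zero_of_psi_fix hc fun l hl => by
    rw [mul_comm]
    exact u4_mem_L U h hk hΩ (heis_Y_top.not.2 hv) ⟨l, hl⟩ ⟨c, hc⟩ e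

include U h in
theorem u4_card_nonfixed {ω : Ω} (hv : ¬ AS B (StB B ω) v) :
    (q + 1) * q ^ 3 ≤ Nat.card {ω : Ω // ¬ AS B (StB B ω) v} := by
  have h1 := (𝐇).card_orb_mem ((𝐇).N Ω 0 1)
  rw [Finset.sum_congr rfl (g := fun _ => q ^ 3) fun O hO => by
    have := heis_Y_ne_top ((𝐇).mem_N.1 hO).2 one_ne_zero
    rw [u4_card_A U h hk hΩ this, (AddSubgroup.eq_top_iff' _).2 (u4_mem_L U h hk hΩ this),
      AddSubgroup.card_top, card_Fx, pow_succ q 2], Finset.sum_const,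
    (u4_card_N U h hk hΩ (heis_Y_top.not.2 hv) one_ne_zero).1, smul_eq_mul] at h1
  rw [← h1]
  exact Nat.card_le_card_of_injective (fun a => ⟨a.1, heis_Y_top.not.1
    (heis_Y_ne_top ((𝐇).mem_N.1 a.2).2 one_ne_zero)⟩) fun _ _ e =>
      Subtype.ext (congrArg (fun z => z.1) e)

include h in
theorem u4_exists_X {ω : Ω} (hv : ¬ AS B (StB B ω) v) : ∃ x ∈ Wp B v w, x ≠ 0 ∧ B x x = 0 ∧
    ∃ t, σ t = t ∧ eE U.toSkH v x t • ω = ω := by
  have hO := (heis_Y_top (S := U.toSkH) (htr := uh_htr U) (h := h)).not.2 hv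
  obtain ⟨x, hx, hx0⟩ := exists_mem_not_mem ((𝐇).A ((𝐇).orb ω)) {0} (by
    have := two_le_q F q
    rw [u4_card_A U h hk hΩ hO, Finset.card_singleton]; nlinarith)
  have hxx := u4_iso U h hk hΩ hO hx
  obtain ⟨t, e1, e2⟩ := heis_mem_X.1 (u4_A_le_X U h hk hΩ hO hx)
  exact ⟨x, x.2, by simpa using hx0, hxx, t, (sub_eq_zero.1 (e1.trans hxx)).symm, e2⟩

theorem u4_tE {ω : Ω} (hv : ¬ AS B (StB B ω) v) {x : Wp B v w} (h0 : x ≠ 0) (hxx : B x x = 0)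
    (hx : x ∈ (𝐇).X ((𝐇).orb ω)) {c : F} (hc : σ c = c) :
    ∃ α t : F, σ t = t ∧ (eE U.toSkH v (α • (x : V)) t * eE U.toSkH x 0 c) • ω = ω := by
  have hO := (heis_Y_top (S := U.toSkH) (htr := uh_htr U) (h := h)).not.2 hv
  have hN := (𝐇).mem_N.2 ⟨heis_smul_mem_A (u4_mem_L U h hk hΩ hO 1) hx, u4_mem_L U h hk hΩ hO 1⟩
  rw [Subfield.coe_one, one_smul] at hN
  have L := Lev.tE U.toSkH x.2 hxx hc
  obtain ⟨y, d, e⟩ := (𝐇).orb_eq_iff.1 (Finset.card_le_one.1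
    ((u4_card_N U h hk hΩ hO one_ne_zero).2 x h0 hxx) _
    ((L.mem_N (by simp [tE_apply U.toSkH hxx hc, hxx]) (by simp)).2 hN) _ hN)
  replace e : (𝐇).el y d • ω = eE U.toSkH x 0 c • ω := e
  have h1 : y ∈ (𝐇).X ((𝐇).orb ω) ⊔ (Submodule.span F {x}).toAddSubgroup := (𝐇).P.mem_of_ann fun a ha => by
    have h2 : B x a = 0 := eq_zero_of_psi_tr U.inv (uh_htr U) fun β => by
      have := ha (σ β • x) (AddSubgroup.mem_sup_right (Submodule.smul_mem _ _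
        (Submodule.mem_span_singleton_self x)))
      change psi F _ = 1 at this
      simpa [U.inv] using this
    obtain ⟨d', e'⟩ := u4_A_le_X U h hk hΩ hO (a := a) fun z hz => ha z (AddSubgroup.mem_sup_left hz)
    have h3 : Commute (eE U.toSkH x 0 c) ((𝐇).el a d') := by
      rw [heis_el]
      exact commute_eE _ _ (by simp [tE_apply U.toSkH hxx hc, U.zero_symm x.2.1])
        (by simp [tE_apply U.toSkH hxx hc, h2])
    have h4 := congrArg (· • ω) ((𝐇).el_swap a y d' d)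
    simp only [mul_smul] at h4
    rw [e, ← mul_smul, ← h3.eq, mul_smul, e', ← e, smul_left_cancel_iff, ← mul_smul, ← (𝐇).ζ_mul_el,
      mul_smul, e'] at h4
    have h5 := u4_eq_zero U h hk hΩ hv (Fx_fix _) h4.symm
    rw [heis_comm, U.skew y a, map_neg, U.inv] at h5
    show psi F _ = 1
    rw [show B y a + σ (B y a) = 0 by linear_combination -h5, AddChar.map_zero_eq_one]
  obtain ⟨a, ⟨d', e'⟩, b, hb, rfl⟩ := AddSubgroup.mem_sup.1 h1
  obtain ⟨α, rfl⟩ := Submodule.mem_span_singleton.1 hb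
  obtain ⟨d₁, e₁⟩ := (𝐇).el_inv (α • x) (d - (𝐇).f (α • x) a - d')
  have hs := heis_el_spec U.toSkH ((-α) • (x : V)) d₁
  refine ⟨-α, _, (sub_eq_zero.1 (hs.trans (by simp [hxx]))).symm, ?_⟩
  rw [← neg_smul, heis_el ((-α) • x), Submodule.coe_smul] at e₁
  rw [mul_smul, ← e, ← e₁, inv_smul_eq_iff]
  conv_rhs => rw [← e', ← mul_smul, (𝐇).el_mul]
  congr 2
  · exact add_comm _ _
  · abel

end Cfsg.Agent.H28
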