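import Cfsg.Agent.H28.U4b

/-!
The minimal degree of a non-trivial permutation representation of a four-dimensional unitary group.
-/

set_option autoImplicit false
set_option linter.unusedSectionVars false
set_option linter.unusedSimpArgs false

namespace Cfsg.Agent.H28

open Module Classical Cfsg.Agent.H27 Cfsg.Agent.H66 Heis
open Cfsg.Agent.H10 (cj cj_cj two_le_q card_fixed card_norm_int exists_skew)

variable {F V : Type*} [Field F] [Fintype F] {q : ℕ} [hF : Fact (Fintype.card F = q ^ 2)]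
variable [AddCommGroup V] [Module F V] [FiniteDimensional F V]

local notation "σ" => cj F q

theorem le_card_quadric {t α c : F} (ht : σ t = t) (hc : σ c = c) (h : c * t ≠ α * σ α ∨ (c = 0 ∧ α ≠ 0)) :
    q ≤ Nat.card {γ : F // t = α * γ + σ (α * γ) - c * (γ * σ γ)} := by
  by_cases h0 : c = 0
  · have hα : α ≠ 0 := by
      rcases h with h | h
      · rintro rfl; simp [h0] at h
      · exact h.2
    refine (H10.card_trace_eq ht).ge.trans ?_
    exact Nat.card_le_card_of_injective (fun x => ⟨x.1 / α, by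
      rw [mul_div_cancel₀ _ hα, h0, x.2]; ring⟩) fun x y e =>
        Subtype.ext ((div_left_inj' hα).1 (congrArg Subtype.val e))
  refine (Nat.le_succ q).trans ?_
  rw [Nat.succ_eq_add_one, ← H10.card_norm_eq (t := α * σ α - c * t)
    (by rw [map_sub, H10.cj_norm, map_mul, hc, ht]) (sub_ne_zero.2 (h.resolve_right fun h => h0 h.1).symm)]
  exact Nat.card_le_card_of_injective (fun x => ⟨(x.1 + σ α) / c, by
    have := x.2
    simp only [map_mul, map_div₀, map_add, cj_cj, hc]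
    field_simp
    linear_combination this⟩) fun x y e =>
      Subtype.ext (add_right_cancel ((div_left_inj' h0).1 (congrArg Subtype.val e)))

variable {B : V →ₛₗ[cj F q] V →ₗ[F] F} (U : UH B) (h4 : finrank F V = 4)
include U h4

theorem u4_card_iso : Nat.card {x : V // x ≠ 0 ∧ B x x = 0} + 1 + q ^ 3 = q ^ 7 + q ^ 4 := by
  have : Finite V := Module.finite_of_finite F
  have h1 := NDs.card_norm U (NDs.top U.toSkH) (μ := 0) (by simp)
  have h2 : Nat.card {y : (⊤ : Submodule F V) // B y y = 0} = Nat.card {y : V // B y y = 0} :=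
    Nat.card_congr (Submodule.topEquiv.toEquiv.subtypeEquiv fun _ => Iff.rfl)
  rw [h2, finrank_top, h4, if_pos rfl] at h1
  rw [card_ne_zero_succ (fun x => B x x = 0) (by simp)]
  have := two_le_q F q
  zify
  refine mul_left_cancel₀ (show (q : ℤ) ≠ 0 by omega) ?_
  linear_combination h1

theorem u4_card_col {x : V} (h0 : x ≠ 0) (hx : B x x = 0) :
    Nat.card {y : V // B y y = 0 ∧ B x y = 0 ∧ y ∉ Submodule.span F {x}} ≤
      (q ^ 3 + q ^ 2) * (q ^ 2 - 1) := by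
  obtain ⟨w, h⟩ := exists_HP U.toSkH hx h0
  have hW := h.finrank_Wp U.toSkH
  have h1 := u4_cnt U h (by omega) (μ := 0) (by simp)
  rw [if_pos rfl, ← card_ne_zero_succ _ (by simp)] at h1
  have h2 := Nat.card_le_card_of_injective
    (fun y : {y : V // B y y = 0 ∧ B x y = 0 ∧ y ∉ Submodule.span F {x}} =>
      ((⟨⟨y.1 + B w y.1 • x, by simpa [y.2.2.1] using h.proj_mem U.toSkH y.1⟩, fun e => y.2.2.2
        (Submodule.mem_span_singleton.2 ⟨-B w y.1, by
          rw [neg_smul, neg_eq_iff_add_eq_zero, add_comm]; exact congrArg Subtype.val e⟩),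
        by simp [y.2.1, y.2.2.1, U.zero_symm y.2.2.1, hx]⟩, B w y.1) :
        {z : Wp B x w // z ≠ 0 ∧ B z z = 0} × F)) fun y y' e => by
      have e1 : y.1 + B w y.1 • x = y'.1 + B w y'.1 • x := congrArg (fun p => (p.1.1 : V)) e
      rw [show B w y.1 = B w y'.1 from congrArg Prod.snd e, add_left_inj] at e1
      exact Subtype.ext e1
  rw [Nat.card_prod, Nat.card_eq_fintype_card (α := F), hF.out] at h2
  refine h2.trans_eq ?_
  have := Nat.one_le_pow 2 q (by have := two_le_q F q; omega)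
  zify [this] at h1 ⊢
  linear_combination q ^ 2 * h1

variable {Ω : Type*} [MulAction (GG B) Ω] [Finite Ω] (hΩ : Nat.card Ω < (q + 1) * (q ^ 3 + 1))
include hΩ

theorem u4_as {ω : Ω} {u : V} (hu : B u u = 0) {c : F} (hc : σ c = c) (h0 : c ≠ 0)
    (e : eE U.toSkH u 0 c • ω = ω) : AS B (StB B ω) u := by
  by_contra hn
  obtain ⟨w, h⟩ := exists_HP U.toSkH hu (by rintro rfl; exact hn as_zero)
  have := h.finrank_Wp U.toSkH
  exact h0 (u4_eq_zero U h (by omega) hΩ hn hc e)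

theorem u4_tE' {ω : Ω} {u x : V} (hu : B u u = 0) (hn : ¬ AS B (StB B ω) u) (hx : B x x = 0)
    (hux : B u x = 0) (hxu : x ∉ Submodule.span F {u}) {β t : F} (hβ : β ≠ 0) (ht : σ t = t)
    (e : eE U.toSkH u (β • x) t • ω = ω) {c : F} (hc : σ c = c) :
    ∃ α t : F, σ t = t ∧ (eE U.toSkH u (α • x) t * eE U.toSkH x 0 c) • ω = ω := by
  obtain ⟨z, -, e1, e2⟩ := (NDs.top U.toSkH).exists_two U.toSkH trivial trivial
    (by rintro rfl; exact hn as_zero) hxu 1 0
  obtain ⟨w, hw, e3, e4⟩ := U.exists_partner (P := LinearMap.ker (B x)) hu (U.zero_symm hux) e2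
    (e1 ▸ one_ne_zero)
  have h : HP B u w := ⟨hu, e3, e4⟩
  have := h.finrank_Wp U.toSkH
  have hβ' : σ β ≠ 0 := (map_ne_zero _).2 hβ
  have hc' : σ (c / (β * σ β)) = c / (β * σ β) := by rw [map_div₀, H10.cj_norm, hc]
  obtain ⟨α, t', e5, e6⟩ := u4_tE U h (by omega) hΩ hn
    (x := ⟨β • x, by simp [mem_Wp, hux, U.zero_symm hw]⟩)
    (fun e => hxu (by rw [(smul_eq_zero.1 (congrArg Subtype.val e)).resolve_left hβ]; simp))
    (by simp [hx]) (heis_mem_X.2 ⟨t, by simp [ht, hx], e⟩) hc'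
  refine ⟨α * β, t', e5, ?_⟩
  rwa [eE_eq U.toSkH (γ := 0) (t := c) hx (map_zero _) (by simp [hc]) rfl (by simp) hβ
    (by simp [hβ, hβ']), smul_smul] at e6

theorem u4_not_fix {ω : Ω} {L : Submodule F V} (hL : ∀ a ∈ L, ∀ b ∈ L, B a b = 0)
    (hA : ∀ a ∈ L, AS B (StB B ω) a → a = 0) {u₀ x₀ : V} (hu₀ : u₀ ∈ L) (hx₀ : x₀ ∈ L) (h₀ : u₀ ≠ 0)
    (h₀' : x₀ ∉ Submodule.span F {u₀}) {t₀ : F} (ht₀ : σ t₀ = t₀) : eE U.toSkH u₀ x₀ t₀ • ω ≠ ω := by
  intro e₀
  have : Finite V := Module.finite_of_finite F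
  have z0 : ∀ u x : V, B u u = 0 → ∃ t, σ t = t ∧ eE U.toSkH u ((0 : F) • x) t • ω = ω := fun u x hu =>
    ⟨0, map_zero _, by rw [zero_smul, tE_zero _ hu, one_smul]⟩
  have : Nonempty {p : V × V // p.1 ∈ L ∧ p.2 ∈ L ∧ p.1 ≠ 0 ∧ p.2 ∉ Submodule.span F {p.1}} :=
    ⟨⟨(u₀, x₀), hu₀, hx₀, h₀, h₀'⟩⟩
  obtain ⟨⟨⟨u, x⟩, hu, hx, h0, hxu⟩, hm⟩ := Finite.exists_max
    fun p : {p : V × V // p.1 ∈ L ∧ p.2 ∈ L ∧ p.1 ≠ 0 ∧ p.2 ∉ Submodule.span F {p.1}} =>
      Nat.card {β : F // β ≠ 0 ∧ ∃ t, σ t = t ∧ eE U.toSkH p.1.1 (β • p.1.2) t • ω = ω}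
  dsimp only at hu hx h0 hxu hm
  have uu := hL u hu u hu
  have ux := hL u hu x hx
  have xu := hL x hx u hu
  have xx := hL x hx x hx
  have hn : ¬ AS B (StB B ω) u := fun e => h0 (hA u hu e)
  obtain ⟨β₀, hβ₀, t₁, ht₁, e₁⟩ : Nonempty {β : F // β ≠ 0 ∧ ∃ t, σ t = t ∧ eE U.toSkH u (β • x) t • ω = ω} := by
    have : Nonempty {β : F // β ≠ 0 ∧ ∃ t, σ t = t ∧ eE U.toSkH u₀ (β • x₀) t • ω = ω} :=
      ⟨⟨1, one_ne_zero, t₀, ht₀, by rwa [one_smul]⟩⟩
    exact (Nat.card_pos_iff.1 (lt_of_lt_of_le Nat.card_pos (hm ⟨(u₀, x₀), hu₀, hx₀, h₀, h₀'⟩))).1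
  choose α τ hτ hα using fun c : Fx σ => u4_tE' U h4 hΩ uu hn xx ux hxu hβ₀ ht₁ e₁ c.2
  have wf : ∀ t α c : F, σ t = t → σ c = c → ∀ z, (eE U.toSkH u (α • x) t * eE U.toSkH x 0 c).1 z =
      z + (c * B x z + α * B u z) • x + (σ α * B x z + t * B u z) • u := fun t α c ht hc z => by
    rw [GG_mul_apply, tE_apply _ xx hc, eE_apply _ uu (by simp [ux]) (by simp [ht, xx])]
    simp only [map_add, map_smul, LinearMap.map_smulₛₗ, LinearMap.smul_apply, ux, xx, smul_eq_mul,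
      RingHom.id_apply]
    module
  let P : F × F × F → Prop := fun p => σ p.1 = p.1 ∧ σ p.2.2 = p.2.2 ∧
    (eE U.toSkH u (p.2.1 • x) p.1 * eE U.toSkH x 0 p.2.2) • ω = ω
  have P0 : P 0 := ⟨map_zero _, map_zero _, by simp [tE_zero _ uu, tE_zero _ xx]⟩
  have h1 : q * Nat.card {β : F // ∃ t, σ t = t ∧ eE U.toSkH u (β • x) t • ω = ω} ≤
      Nat.card {p // P p} := by
    refine (Nat.mul_le_mul_right _ (card_Fx (F := F) (q := q)).ge).trans ?_
    rw [← Nat.card_prod]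
    refine Nat.card_le_card_of_injective (fun p => ⟨(p.2.2.choose + τ p.1, p.2.1 + α p.1, p.1), ?_⟩)
      fun p p' e => ?_
    · obtain ⟨e1, e2⟩ := p.2.2.choose_spec
      refine ⟨by simp [e1, hτ], p.1.2, ?_⟩
      have := eE_mul U.toSkH uu (x := p.2.1 • x) (by simp [ux]) (t := p.2.2.choose) (by simp [e1, xx])
        (y := α p.1 • x) (by simp [ux]) (s := τ p.1) (by simp [hτ, xx])
      rw [← add_smul, show B (p.2.1 • x) (α p.1 • x) = 0 by simp [xx], add_zero] at this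
      show (eE U.toSkH u ((p.2.1 + α p.1) • x) _ * _) • ω = ω
      rw [← this, mul_assoc, mul_smul, hα, e2]
    · have e1 : p.1 = p'.1 := Subtype.ext (congrArg (fun p => p.1.2.2) e)
      have e2 : p.2.1 + α p.1 = p'.2.1 + α p'.1 := congrArg (fun p => p.1.2.1) e
      rw [e1, add_left_inj] at e2
      exact Prod.ext e1 (Subtype.ext e2)
  have ne : ∀ γ : F, x + γ • u ≠ 0 := fun γ e => hxu (Submodule.mem_span_singleton.2
    ⟨-γ, by rw [neg_smul, neg_eq_iff_add_eq_zero, add_comm, e]⟩)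
  have hm' : ∀ γ : F, x + γ • u ∈ L := fun γ => L.add_mem hx (L.smul_mem _ hu)
  have key : ∀ t α c γ : F, σ t = t → σ c = c → t = α * γ + σ (α * γ) - c * (γ * σ γ) →
      eE U.toSkH u (α • x) t * eE U.toSkH x 0 c = eE U.toSkH (x + γ • u) ((σ α - c * γ) • u) c := by
    intro t α c γ ht hc e
    refine GG_ext fun z => ?_
    rw [wf t α c ht hc, eE_apply _ (hL _ (hm' γ) _ (hm' γ)) (hL _ (hm' γ) _ (L.smul_mem _ hu))
      (by simp [hc, uu]), e]
    simp only [map_add, map_sub, map_mul, LinearMap.map_smulₛₗ, LinearMap.smul_apply, smul_eq_mul,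
      LinearMap.add_apply, U.inv, hc]
    module
  have key0 : ∀ t α c γ : F, P (t, α, c) → t = α * γ + σ (α * γ) - c * (γ * σ γ) → σ α - c * γ = 0 →
      (t, α, c) = 0 := by
    intro t α c γ ⟨ht, hc, e⟩ e1 e2
    dsimp only at ht hc e
    rw [key t α c γ ht hc e1, e2, zero_smul] at e
    have h2 : c = 0 := by
      by_contra h2
      exact ne γ (hA _ (hm' γ) (u4_as U h4 hΩ (hL _ (hm' γ) _ (hm' γ)) hc h2 e))
    have h3 : α = 0 := by simpa [h2] using e2
    simp [e1, h2, h3]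
  have h2 := card_mul_le_of_rel (X := {p // p ≠ 0 ∧ P p}) (Ω := F)
    (fun p γ => p.1.1 = p.1.2.1 * γ + σ (p.1.2.1 * γ) - p.1.2.2 * (γ * σ γ)) (a := q)
    (b := Nat.card {β : F // β ≠ 0 ∧ ∃ t, σ t = t ∧ eE U.toSkH u (β • x) t • ω = ω})
    (by
      rintro ⟨⟨t, α, c⟩, h0, hP⟩
      refine le_card_quadric hP.1 hP.2.1 ?_
      by_contra hc
      push Not at hc
      obtain ⟨ht, hc', e⟩ := id hP
      dsimp only at ht hc' e hc
      by_cases h2 : c = 0
      · rw [h2, hc.2 h2, zero_smul, tE_zero _ xx, mul_one] at e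
        have : t = 0 := by
          by_contra h3
          exact hn (u4_as U h4 hΩ uu ht h3 e)
        exact h0 (by simp [this, h2, hc.2 h2])
      · refine h0 (key0 t α c (σ α / c) hP ?_ (by rw [mul_div_cancel₀ _ h2, sub_self]))
        simp only [map_mul, map_div₀, U.inv, hc']
        field_simp
        linear_combination hc.1)
    (fun γ => le_trans (Nat.card_le_card_of_injective (fun p => (⟨σ p.1.1.2.1 - p.1.1.2.2 * γ,
        fun e => p.1.2.1 (key0 _ _ _ γ p.1.2.2 p.2 e), p.1.1.2.2, p.1.2.2.2.1, by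
          rw [← key _ _ _ γ p.1.2.2.1 p.1.2.2.2.1 p.2]; exact p.1.2.2.2.2⟩ :
          {β : F // β ≠ 0 ∧ ∃ t, σ t = t ∧ eE U.toSkH (x + γ • u) (β • u) t • ω = ω})) (by
        rintro ⟨⟨⟨t, α, c⟩, n, ht, hc, e⟩, e1⟩ ⟨⟨⟨t', α', c'⟩, n', ht', hc', e'⟩, e1'⟩ e2
        have e2 : σ α - c * γ = σ α' - c' * γ := congrArg Subtype.val e2
        dsimp only at ht hc e e1 ht' hc' e' e1'
        have := key0 (t - t') (α - α') (c - c') γ ⟨by simp [ht, ht'], by simp [hc, hc'], by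
          dsimp only
          conv_lhs => rw [← e', ← mul_smul]
          refine Eq.trans (congrArg (· • ω) (GG_ext fun z => ?_)) e
          rw [GG_mul_apply, wf _ _ _ (by simp [ht, ht']) (by simp [hc, hc']), wf _ _ _ ht hc,
            wf _ _ _ ht' hc']
          simp only [map_add, map_smul, ux, xx, uu, xu, map_sub, smul_zero, add_zero]
          module⟩ (by rw [e1, e1']; simp only [map_mul, map_sub]; ring)
          (by rw [map_sub]; linear_combination e2)
        simp only [Prod.mk_eq_zero, sub_eq_zero] at this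
        obtain ⟨rfl, rfl, rfl⟩ := this
        rfl))
      (hm ⟨(x + γ • u, u), hm' γ, hu, ne γ, fun e => by
        obtain ⟨c, hc⟩ := Submodule.mem_span_singleton.1 e
        dsimp only at hc
        have h2 : c ≠ 0 := by rintro rfl; exact h0 (by simpa using hc.symm)
        exact hxu (Submodule.mem_span_singleton.2 ⟨c⁻¹ - γ, by
          rw [sub_smul, sub_eq_iff_eq_add, inv_smul_eq_iff₀ h2, hc]⟩)⟩))
  rw [← card_ne_zero_succ _ (z0 u x uu), ← card_ne_zero_succ P P0] at h1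
  rw [Nat.card_eq_fintype_card (α := F), hF.out] at h2
  have := two_le_q F q
  nlinarith

theorem u4_collinear {ω : Ω} {v : V} (hvv : B v v = 0) (hv : ¬ AS B (StB B ω) v) :
    ∃ u, u ≠ 0 ∧ AS B (StB B ω) u ∧ B u v = 0 := by
  by_contra hc
  push Not at hc
  have h0 : v ≠ 0 := by rintro rfl; exact hv as_zero
  obtain ⟨w, h⟩ := exists_HP U.toSkH hvv h0
  have := h.finrank_Wp U.toSkH
  obtain ⟨x, hx, hx0, hxx, t, ht, e⟩ := u4_exists_X U h (by omega) hΩ hv
  have hL : ∀ a ∈ Submodule.span F {v, x}, ∀ b ∈ Submodule.span F {v, x}, B a b = 0 := by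
    intro a ha b hb
    obtain ⟨a₁, a₂, rfl⟩ := Submodule.mem_span_pair.1 ha
    obtain ⟨b₁, b₂, rfl⟩ := Submodule.mem_span_pair.1 hb
    simp [hvv, hxx, (mem_Wp.1 hx).1, U.zero_symm hx.1]
  have hv' : v ∈ Submodule.span F {v, x} := Submodule.subset_span (by simp)
  refine u4_not_fix U h4 hΩ hL (fun a ha e => ?_) hv' (Submodule.subset_span (by simp)) h0
    (fun e => ?_) ht e
  · by_contra h1
    exact hc a h1 e (hL a ha v hv')
  · obtain ⟨c, rfl⟩ := Submodule.mem_span_singleton.1 e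
    have : c = 0 := by simpa [h.wv U.toSkH] using (mem_Wp.1 hx).2
    simp [this] at hx0

omit hΩ in
theorem u4_min_card [MulAction.IsPretransitive (GG B) Ω] {ω : Ω} {g : GG B} (hg : g • ω ≠ ω) :
    (q + 1) * (q ^ 3 + 1) ≤ Nat.card Ω := by
  by_contra hΩ
  rw [not_le] at hΩ
  have : Finite V := Module.finite_of_finite F
  obtain ⟨v, hvv, hv⟩ : ∃ v, B v v = 0 ∧ ¬ AS B (StB B ω) v := by
    by_contra hc
    push Not at hc
    exact hg (smul_eq_of_as U.toSkH hc g)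
  have h0 : v ≠ 0 := by rintro rfl; exact hv as_zero
  obtain ⟨w, h⟩ := exists_HP U.toSkH hvv h0
  have hW := h.finrank_Wp U.toSkH
  have h1 := u4_card_nonfixed U h (by omega) hΩ hv
  have h2 : Nat.card {ω : Ω // AS B (StB B ω) v} + Nat.card {ω : Ω // ¬ AS B (StB B ω) v} =
      Nat.card Ω := by rw [← Nat.card_sum, Nat.card_congr (Equiv.sumCompl _)]
  have h3 := card_mul_le_of_rel (X := Ω) (Ω := {x : V // x ≠ 0 ∧ B x x = 0})
    (fun ω x => AS B (StB B ω) x) (a := Nat.card {u : V // u ≠ 0 ∧ AS B (StB B ω) u})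
    (b := Nat.card {ω : Ω // AS B (StB B ω) v}) (fun ω' => by
      obtain ⟨k, rfl⟩ := MulAction.exists_smul_eq (GG B) ω ω'
      exact Nat.card_le_card_of_injective (fun u => ⟨⟨k.1 u, k.1.map_ne_zero_iff.2 u.2.1, by
        rw [GG_iso, u.2.2.1]⟩, (as_StB_smul U.toSkH k).2 u.2.2⟩) fun _ _ e =>
          Subtype.ext (k.1.injective (congrArg (fun z => z.1.1) e)))
    (fun x => by
      obtain ⟨k, hk, -⟩ := (NDs.top U.toSkH).move U trivial trivial x.2.1 h0 (x.2.2.trans hvv.symm)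
        (Or.inl (by rw [finrank_top]; omega))
      exact Nat.card_le_card_of_injective (fun a => ⟨k • a.1, hk ▸ (as_StB_smul U.toSkH k).2 a.2⟩)
        fun _ _ e => Subtype.ext (smul_left_cancel k (congrArg Subtype.val e)))
  have h5 := card_ne_zero_succ (fun _ : F => True) trivial
  rw [Nat.card_congr (Equiv.subtypeUnivEquiv fun _ => trivial), Nat.card_eq_fintype_card (α := F),
    hF.out] at h5
  have h6 := card_mul_le_of_rel (X := {x : {x : V // x ≠ 0 ∧ B x x = 0} // ¬ AS B (StB B ω) x})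
    (Ω := {u : V // u ≠ 0 ∧ AS B (StB B ω) u}) (fun x u => B u x.1 = 0) (a := q ^ 2 - 1)
    (b := (q ^ 3 + q ^ 2) * (q ^ 2 - 1)) (fun x => by
      obtain ⟨u, e1, e2, e3⟩ := u4_collinear U h4 hΩ x.1.2.2 x.2
      rw [← h5, Nat.add_sub_cancel]
      exact Nat.card_le_card_of_injective (fun c => ⟨⟨c.1 • u, smul_ne_zero c.2.1 e1, U.as_smul e2 _⟩,
        by simp [e3]⟩) fun _ _ e => Subtype.ext (smul_left_injective F e1 (congrArg (fun z => z.1.1) e)))
    (fun u => le_trans (Nat.card_le_card_of_injective (fun x => ⟨x.1.1.1, x.1.1.2.2, x.2, fun e => by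
      obtain ⟨c, hc⟩ := Submodule.mem_span_singleton.1 e
      exact x.1.2 (hc ▸ U.as_smul u.2.2 c)⟩) fun _ _ e =>
        Subtype.ext (Subtype.ext (Subtype.ext (congrArg (fun z => z.1) e))))
      (u4_card_col U h4 u.2.1 u.2.2.1))
  have h7 : Nat.card {u : V // u ≠ 0 ∧ AS B (StB B ω) u} +
      Nat.card {x : {x : V // x ≠ 0 ∧ B x x = 0} // ¬ AS B (StB B ω) x} =
      Nat.card {x : V // x ≠ 0 ∧ B x x = 0} := by
    rw [← Nat.card_congr (Equiv.sumCompl fun x : {x : V // x ≠ 0 ∧ B x x = 0} => AS B (StB B ω) x),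
      Nat.card_sum]
    exact congrArg (· + _) (Nat.card_congr ⟨fun u => ⟨⟨u.1, u.2.1, u.2.2.1⟩, u.2.2⟩,
      fun u => ⟨u.1.1, u.1.2.1, u.2⟩, fun _ => rfl, fun _ => rfl⟩)
  have h8 := u4_card_iso U h4
  have hq := two_le_q F q
  rw [← mul_assoc] at h6
  replace h6 := Nat.le_of_mul_le_mul_right h6 (by have : 2 ^ 2 ≤ q ^ 2 := Nat.pow_le_pow_left hq 2; omega)
  generalize Nat.card {u : V // u ≠ 0 ∧ AS B (StB B ω) u} = a at *
  generalize Nat.card {x : {x : V // x ≠ 0 ∧ B x x = 0} // ¬ AS B (StB B ω) x} = b at *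
  generalize Nat.card {x : V // x ≠ 0 ∧ B x x = 0} = P at *
  generalize Nat.card {ω : Ω // AS B (StB B ω) v} = f at *
  generalize Nat.card {ω : Ω // ¬ AS B (StB B ω) v} = n at *
  generalize Nat.card Ω = N at *
  zify at *
  have k1 : (f : ℤ) ≤ q := by nlinarith
  have k2 : (P : ℤ) ≤ a * (q ^ 3 + q ^ 2 + 1) := by linarith
  have k3 : (a : ℤ) * (q * (q ^ 3 + q ^ 2) + f) ≤ P * f :=
    le_trans (by rw [mul_comm]; exact mul_le_mul_of_nonneg_right (by linarith) (by positivity)) h3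
  have k4 : (0 : ℤ) < P := by
    have : (q : ℤ) ^ 3 + 1 < q ^ 7 + q ^ 4 := by
      nlinarith [pow_pos (show (0 : ℤ) < q by omega) 3, pow_pos (show (0 : ℤ) < q by omega) 7]
    linarith
  have k5 : (0 : ℤ) < a := by
    by_contra hc
    have : (a : ℤ) = 0 := by omega
    rw [this] at k2; linarith
  have k6 : (f : ℤ) = q := by
    refine le_antisymm k1 (not_lt.1 fun hc => ?_)
    have e1 := mul_le_mul_of_nonneg_right k2 (show (0 : ℤ) ≤ f by positivity)
    have e2 := mul_pos k5 (mul_pos (sub_pos.2 hc) (show (0 : ℤ) < q ^ 3 + q ^ 2 by positivity))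
    nlinarith
  rw [k6] at k3
  have k7 : (P : ℤ) = a * (q ^ 3 + q ^ 2 + 1) :=
    le_antisymm k2 (le_of_mul_le_mul_right (by linarith) (show (0 : ℤ) < q by omega))
  have k8 : (q : ℤ) ^ 3 + q ^ 2 + 1 ∣ 2 * (q : ℤ) ^ 2 - q + 2 :=
    ⟨q ^ 4 - q ^ 3 + q ^ 2 - q + 1 - a, by linear_combination h8 - k7⟩
  have k9 := Int.le_of_dvd (by nlinarith) k8
  nlinarith

end Cfsg.Agent.H28
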